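import Cfsg.Agent.C6.Defs
import Mathlib.Algebra.Central.End

/-! Normalisers of symplectic type `2`-groups: scalars, the commutation form, spans. -/

set_option autoImplicit false
set_option linter.unusedSectionVars false
set_option linter.unusedVariables false
set_option linter.unusedSimpArgs false

namespace Cfsg.Agent.C6

open Module Cfsg.Agent.H27

universe u v

variable {F : Type u} {V : Type v} [Field F] [AddCommGroup V] [Module F V]
variable {R M : Subgroup (GV F V)} {a b c g h r s x y z : GV F V} {l : List (GV F V)}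

theorem mem_Sc : g ∈ Sc F V ↔ ∃ c : F, c ≠ 0 ∧ g.1 = c • (1 : End F V) := Iff.rfl

theorem sc_val (c : F) (hc : c ≠ 0) : (sc V c hc).1 = c • (1 : End F V) := rfl

theorem sc_mem (c : F) (hc : c ≠ 0) : sc V c hc ∈ Sc F V := ⟨c, hc, rfl⟩

theorem mem_Sc_of [Nontrivial V] {c : F} (h : g.1 = c • (1 : End F V)) : g ∈ Sc F V :=
  ⟨c, fun e => g.ne_zero (by rw [h, e, zero_smul]), h⟩

theorem Sc_comm (hs : s ∈ Sc F V) (g : GV F V) : s * g = g * s := by
  obtain ⟨c, -, h⟩ := hs
  exact Units.ext (by rw [Units.val_mul, Units.val_mul, h]; simp)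

theorem Sc_conj (hs : s ∈ Sc F V) (g : GV F V) : g * s * g⁻¹ = s := by
  rw [← Sc_comm hs, mul_inv_cancel_right]

theorem Sc_conj' (hs : s ∈ Sc F V) (g : GV F V) : s * g * s⁻¹ = g := by
  rw [Sc_comm hs, mul_inv_cancel_right]

instance : (Sc F V).Normal := ⟨fun s hs g => by rwa [Sc_conj hs]⟩

theorem neg_one_mem_Sc : (-1 : GV F V) ∈ Sc F V := ⟨-1, by simp, by simp⟩

theorem neg_mem_of {X : Subgroup (GV F V)} (h : -1 ∈ X) (hx : x ∈ X) : -x ∈ X := by
  simpa using X.mul_mem h hx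

theorem neg_mem_Sc : -x ∈ Sc F V ↔ x ∈ Sc F V :=
  ⟨fun h => by simpa using neg_mem_of neg_one_mem_Sc h, neg_mem_of neg_one_mem_Sc⟩

theorem conj_mem_Sc : g * x * g⁻¹ ∈ Sc F V ↔ x ∈ Sc F V :=
  ⟨fun h => by simpa [mul_assoc] using (inferInstance : (Sc F V).Normal).conj_mem _ h g⁻¹,
    fun h => (inferInstance : (Sc F V).Normal).conj_mem _ h g⟩

theorem Sc_sq [Nontrivial V] (hs : s ∈ Sc F V) (h : s * s = 1) : s = 1 ∨ s = -1 := by
  obtain ⟨c, -, e⟩ := hs
  have h1 := congrArg Units.val h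
  rw [Units.val_mul, e, smul_mul_smul_comm, one_mul, Units.val_one] at h1
  have : c * c = 1 := smul_left_injective F (one_ne_zero (α := End F V)) (by simpa using h1)
  rcases mul_self_eq_one_iff.1 this with rfl | rfl
  · exact Or.inl (Units.ext (by simpa using e))
  · exact Or.inr (Units.ext (by simpa using e))

theorem val_conj_Sc (g : GV F V) (hs : s ∈ Sc F V) : s * g * s⁻¹ = g := Sc_conj' hs g

theorem finite_GV [Finite F] [FiniteDimensional F V] : Finite (GV F V) :=
  have := Module.finite_of_finite F (M := V)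
  have : Finite (End F V) := Finite.of_injective _ DFunLike.coe_injective
  inferInstance

theorem mem_RS : x ∈ RS R ↔ ∃ s ∈ Sc F V, ∃ r ∈ R, x = s * r := by
  rw [RS, Subgroup.mem_sup_of_normal_right]
  constructor
  · rintro ⟨r, hr, s, hs, rfl⟩
    exact ⟨s, hs, r, hr, (Sc_comm hs r).symm⟩
  · rintro ⟨s, hs, r, hr, rfl⟩
    exact ⟨r, hr, s, hs, (Sc_comm hs r).symm⟩

theorem le_RS (h : x ∈ R) : x ∈ RS R := Subgroup.mem_sup_left h

theorem Sc_le_RS (h : x ∈ Sc F V) : x ∈ RS R := Subgroup.mem_sup_right h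

theorem neg_mem_RS (h : x ∈ RS R) : -x ∈ RS R := neg_mem_of (Sc_le_RS neg_one_mem_Sc) h

theorem CM.RS_le (h : CM R M) : RS R ≤ M := sup_le h.le h.sc

theorem mem_Nrm_apply (hg : g ∈ Nrm R) (hx : x ∈ RS R) : g * x * g⁻¹ ∈ RS R :=
  (Subgroup.mem_set_normalizer_iff.1 hg x).1 hx

theorem mem_Nrm [Finite F] [FiniteDimensional F V] (h : ∀ x ∈ R, g * x * g⁻¹ ∈ RS R) :
    g ∈ Nrm R := by
  have := finite_GV (F := F) (V := V)
  refine Subgroup.mem_normalizer_fintype fun x hx => ?_
  obtain ⟨s, hs, r, hr, rfl⟩ := mem_RS.1 hx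
  rw [show g * (s * r) * g⁻¹ = g * s * g⁻¹ * (g * r * g⁻¹) by group, Sc_conj hs]
  exact (RS R).mul_mem (Sc_le_RS hs) (h r hr)

theorem RS_le_Nrm : RS R ≤ Nrm R := Subgroup.le_normalizer

theorem ip_eq_zero : ip x y = 0 ↔ x * y = y * x := by
  unfold ip; split_ifs with h <;> simp [h]

theorem ip_congr {x' y' : GV F V} (h : x * y = y * x ↔ x' * y' = y' * x') : ip x y = ip x' y' := by
  unfold ip
  split_ifs with h1 h2 h2
  exacts [rfl, absurd (h.1 h1) h2, absurd (h.2 h2) h1, rfl]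

theorem ip_comm (x y : GV F V) : ip x y = ip y x := ip_congr eq_comm

theorem ip_self (x : GV F V) : ip x x = 0 := ip_eq_zero.2 rfl

theorem ip_cases (x y : GV F V) : ip x y = 0 ∨ ip x y = 1 := by
  generalize ip x y = t; revert t; decide

theorem ip_one_of (h : ip x y ≠ 0) : ip x y = 1 := (ip_cases x y).resolve_left h

theorem ip_sc_left (hs : s ∈ Sc F V) (x : GV F V) : ip s x = 0 := ip_eq_zero.2 (Sc_comm hs x)

theorem ip_sc_right (hs : s ∈ Sc F V) (x : GV F V) : ip x s = 0 := by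
  rw [ip_comm, ip_sc_left hs]

theorem ip_conj (g x y : GV F V) : ip (g * x * g⁻¹) (g * y * g⁻¹) = ip x y :=
  ip_congr (by
    rw [show g * x * g⁻¹ * (g * y * g⁻¹) = g * (x * y) * g⁻¹ by group,
      show g * y * g⁻¹ * (g * x * g⁻¹) = g * (y * x) * g⁻¹ by group, mul_left_inj, mul_right_inj])

theorem ip_inv_left (x y : GV F V) : ip x⁻¹ y = ip x y :=
  ip_congr ⟨fun h => (Commute.inv_left_iff.1 h).eq, fun h => (Commute.inv_left (a := x) h).eq⟩

theorem ip_inv_right (x y : GV F V) : ip x y⁻¹ = ip x y := by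
  rw [ip_comm, ip_inv_left, ip_comm]

theorem ip_neg_left (x y : GV F V) : ip (-x) y = ip x y := ip_congr (by simp)

theorem ip_neg_right (x y : GV F V) : ip x (-y) = ip x y := ip_congr (by simp)

theorem ip_smul_left (hs : s ∈ Sc F V) (x y : GV F V) : ip (s * x) y = ip x y :=
  ip_congr (by rw [← mul_assoc y, ← Sc_comm hs y, mul_assoc, mul_assoc, mul_right_inj])

theorem ip_smul_right (hs : s ∈ Sc F V) (x y : GV F V) : ip x (s * y) = ip x y := by
  rw [ip_comm, ip_smul_left hs, ip_comm]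

theorem not_Sc_of_ip (h : ip x y = 1) : x ∉ Sc F V := fun hx => by
  rw [ip_sc_left hx] at h; exact zero_ne_one h

theorem not_Sc_of_ip' (h : ip x y = 1) : y ∉ Sc F V := not_Sc_of_ip ((ip_comm y x).trans h)

theorem conj_of_ip (h : ip g x = 0) : g * x * g⁻¹ = x := by
  rw [ip_eq_zero.1 h, mul_inv_cancel_right]

theorem ip_mul_zero (h1 : ip g x = 0) (h2 : ip h x = 0) : ip (g * h) x = 0 :=
  ip_eq_zero.2 (Commute.mul_left (ip_eq_zero.1 h1) (ip_eq_zero.1 h2))

theorem ip_of_conj (h : g * x * g⁻¹ = x) : ip g x = 0 :=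
  ip_eq_zero.2 (mul_inv_eq_iff_eq_mul.1 h)

theorem Sp_nil : Sp [] z ↔ z ∈ Sc F V := Iff.rfl

theorem Sp_cons : Sp (a :: l) z ↔ Sp l z ∨ Sp l (a * z) := Iff.rfl

theorem Sp.smul (h : Sp l z) (hs : s ∈ Sc F V) : Sp l (s * z) := by
  induction l generalizing z with
  | nil => exact (Sc F V).mul_mem hs h
  | cons a l ih =>
    refine h.imp ih fun h => ?_
    rw [← mul_assoc, ← Sc_comm hs, mul_assoc]
    exact ih h

theorem Sp.neg (h : Sp l z) : Sp l (-z) := by simpa using h.smul neg_one_mem_Sc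

theorem sp_neg : Sp l (-z) ↔ Sp l z := ⟨fun h => by simpa using h.neg, Sp.neg⟩

theorem sp_smul (hs : s ∈ Sc F V) : Sp l (s * z) ↔ Sp l z :=
  ⟨fun h => by simpa using h.smul ((Sc F V).inv_mem hs), fun h => h.smul hs⟩

theorem sp_of_Sc (h : z ∈ Sc F V) : Sp l z := by
  induction l with
  | nil => exact h
  | cons a l ih => exact Or.inl ih

theorem Sp.mem {X : Subgroup (GV F V)} (h : Sp l z) (hX : Sc F V ≤ X) (hl : ∀ a ∈ l, a ∈ X) :
    z ∈ X := by
  induction l generalizing z with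
  | nil => exact hX h
  | cons a l ih =>
    have h1 : ∀ b ∈ l, b ∈ X := fun b hb => hl b (List.mem_cons_of_mem _ hb)
    rcases h with h | h
    · exact ih h h1
    · simpa using X.mul_mem (X.inv_mem (hl a List.mem_cons_self)) (ih h h1)

theorem Sp.ip (h : Sp l z) (hl : ∀ a ∈ l, ip x a = 0) : ip x z = 0 :=
  ip_eq_zero.2 (Subgroup.mem_centralizer_singleton_iff.1 (h.mem (X := Subgroup.centralizer {x})
    (fun s hs => Subgroup.mem_centralizer_singleton_iff.2 (Sc_comm hs x)) fun a ha =>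
      Subgroup.mem_centralizer_singleton_iff.2 (ip_eq_zero.1 (hl a ha)).symm)).symm

theorem Sp.conj (h : Sp l z) (g : GV F V) : Sp (l.map fun a => g * a * g⁻¹) (g * z * g⁻¹) := by
  induction l generalizing z with
  | nil => exact conj_mem_Sc.2 h
  | cons a l ih =>
    refine h.imp ih fun h => ?_
    simpa [mul_assoc] using ih h

theorem end_cent [FiniteDimensional F V] {f : End F V} (h : ∀ g : End F V, g * f = f * g) :
    ∃ c : F, f = c • (1 : End F V) := by
  have : f ∈ Subalgebra.center F (End F V) := Subalgebra.mem_center_iff.2 h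
  rw [Algebra.IsCentral.center_eq_bot, Algebra.mem_bot] at this
  obtain ⟨c, hc⟩ := this
  exact ⟨c, by rw [← hc, Algebra.algebraMap_eq_smul_one]⟩

theorem exists_trace_one [FiniteDimensional F V] [Nontrivial V] :
    ∃ f : End F V, LinearMap.trace F V f = 1 := by
  obtain ⟨v, hv⟩ := exists_ne (0 : V)
  obtain ⟨l, hl⟩ := Module.Projective.exists_dual_eq_one F hv
  exact ⟨l.smulRight v, by rw [LinearMap.trace_smulRight, hl]⟩

theorem trace_conj [FiniteDimensional F V] (g : GV F V) (f : End F V) :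
    LinearMap.trace F V (g.1 * f * (g⁻¹).1) = LinearMap.trace F V f := by
  rw [LinearMap.trace_mul_comm, ← mul_assoc, Units.inv_mul, one_mul]

namespace Pa

variable (P : Pa R)
include P

theorem ne_neg (x : GV F V) : x ≠ -x := fun h => by
  have := P.nt
  have h1 : (2 : F) • x.1 = 0 := by
    rw [two_smul]; nth_rw 1 [h]; simp
  exact x.ne_zero ((smul_eq_zero.1 h1).resolve_left P.two)

theorem neg_mem (hx : x ∈ R) : -x ∈ R := neg_mem_of P.neg hx

theorem commS (hx : x ∈ RS R) (hy : y ∈ RS R) : x * y = y * x ∨ x * y = -(y * x) := by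
  obtain ⟨s, hs, r, hr, rfl⟩ := mem_RS.1 hx
  obtain ⟨s', hs', r', hr', rfl⟩ := mem_RS.1 hy
  have e : ∀ {s s' r r' : GV F V}, s' ∈ Sc F V → s * r * (s' * r') = s * s' * (r * r') :=
    fun {s s' r r'} h => by rw [mul_assoc, ← mul_assoc r, ← Sc_comm h r]; simp only [mul_assoc]
  rw [e hs', e hs, Sc_comm hs s']
  exact (P.comm r hr r' hr').imp (fun h => by rw [h]) fun h => by rw [h, mul_neg]

theorem sqS (hx : x ∈ RS R) : x * x ∈ Sc F V := by
  obtain ⟨s, hs, r, hr, rfl⟩ := mem_RS.1 hx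
  rw [mul_assoc, ← mul_assoc r, ← Sc_comm hs r, mul_assoc]
  refine (Sc F V).mul_mem hs ((Sc F V).mul_mem hs ?_)
  rcases P.sq r hr with h | h <;> rw [h]
  exacts [(Sc F V).one_mem, neg_one_mem_Sc]

theorem anti (hx : x ∈ RS R) (hy : y ∈ RS R) (h : ip x y = 1) : x * y = -(y * x) :=
  (P.commS hx hy).resolve_left fun e => by rw [ip_eq_zero.2 e] at h; exact zero_ne_one h

theorem ip_of_anti (h : x * y = -(y * x)) : ip x y = 1 :=
  ip_one_of fun e => P.ne_neg _ ((ip_eq_zero.1 e).symm.trans h)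

theorem conj_anti (hx : x ∈ RS R) (hy : y ∈ RS R) (h : ip x y = 1) : x * y * x⁻¹ = -y := by
  rw [P.anti hx hy h]; simp

theorem ip_mul_left (hx : x ∈ RS R) (hy : y ∈ RS R) (hz : z ∈ RS R) :
    ip (x * y) z = ip x z + ip y z := by
  rcases ip_cases x z with h1 | h1 <;> rcases ip_cases y z with h2 | h2 <;> rw [h1, h2]
  · exact ip_mul_zero h1 h2
  · exact P.ip_of_anti (by
      rw [mul_assoc, P.anti hy hz h2, mul_neg, ← mul_assoc, ip_eq_zero.1 h1, mul_assoc])
  · exact P.ip_of_anti (by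
      rw [mul_assoc, ip_eq_zero.1 h2, ← mul_assoc, P.anti hx hz h1, neg_mul, mul_assoc])
  · exact ip_eq_zero.2 (by
      rw [mul_assoc, P.anti hy hz h2, mul_neg, ← mul_assoc, P.anti hx hz h1, neg_mul, neg_neg,
        mul_assoc])

theorem ip_mul_right (hx : x ∈ RS R) (hy : y ∈ RS R) (hz : z ∈ RS R) :
    ip z (x * y) = ip z x + ip z y := by
  rw [ip_comm, P.ip_mul_left hx hy hz, ip_comm x, ip_comm y]

theorem sq_mul_comm (h : ip x y = 0) : x * y * (x * y) = x * x * (y * y) := by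
  rw [mul_assoc, ← mul_assoc y, ← ip_eq_zero.1 h]; simp only [mul_assoc]

theorem sq_mul_anti (hx : x ∈ RS R) (hy : y ∈ RS R) (h : ip x y = 1) :
    x * y * (x * y) = -(x * x * (y * y)) := by
  rw [mul_assoc, ← mul_assoc y, P.anti hy hx ((ip_comm _ _).trans h)]; simp only [mul_assoc, neg_mul, mul_neg]

theorem sp_mul (hl : ∀ a ∈ l, a ∈ RS R) (h1 : Sp l x) (h2 : Sp l y) : Sp l (x * y) := by
  induction l generalizing x y with
  | nil => exact (Sc F V).mul_mem h1 h2
  | cons a l ih =>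
    have ha := hl a List.mem_cons_self
    have hx : x ∈ RS R := h1.mem (fun _ => Sc_le_RS) hl
    have ih := fun {x y} => ih (x := x) (y := y) fun b hb => hl b (List.mem_cons_of_mem _ hb)
    have e : x * a = a * x ∨ x * a = -(a * x) := P.commS hx ha
    rcases h1 with h1 | h1 <;> rcases h2 with h2 | h2
    · exact Or.inl (ih h1 h2)
    · have := ih h1 h2
      rw [← mul_assoc] at this
      rcases e with e | e <;> rw [e] at this
      · exact Or.inr (by rwa [← mul_assoc])
      · exact Or.inr (by rwa [neg_mul, sp_neg, mul_assoc] at this)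
    · exact Or.inr (by rw [← mul_assoc]; exact ih h1 h2)
    · have := ih h1 h2
      rw [mul_assoc, ← mul_assoc x] at this
      rcases e with e | e <;> rw [e] at this
      · rw [mul_assoc, ← mul_assoc a, sp_smul (P.sqS ha)] at this
        exact Or.inl this
      · rw [neg_mul, mul_neg, sp_neg, mul_assoc, ← mul_assoc a, sp_smul (P.sqS ha)] at this
        exact Or.inl this

theorem sp_inv (hl : ∀ a ∈ l, a ∈ RS R) (h1 : Sp l x) : Sp l x⁻¹ := by
  have hx : x ∈ RS R := h1.mem (fun _ => Sc_le_RS) hl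
  have := h1.smul ((Sc F V).inv_mem (P.sqS hx))
  simpa [mul_assoc] using this

theorem sp_of_mem (hl : ∀ a ∈ l, a ∈ RS R) (h : x ∈ l) : Sp l x := by
  induction l with
  | nil => simp at h
  | cons a l ih =>
    rcases List.mem_cons.1 h with rfl | h
    · exact Or.inr (sp_of_Sc (P.sqS (hl x List.mem_cons_self)))
    · exact Or.inl (ih (fun b hb => hl b (List.mem_cons_of_mem _ hb)) h)

theorem sp_of_mul_left (hl : ∀ a ∈ l, a ∈ RS R) (h1 : Sp l x) (h2 : Sp l (x * y)) : Sp l y := by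
  simpa using P.sp_mul hl (P.sp_inv hl h1) h2

theorem sp_of_mul_right (hl : ∀ a ∈ l, a ∈ RS R) (h1 : Sp l y) (h2 : Sp l (x * y)) : Sp l x := by
  simpa using P.sp_mul hl h2 (P.sp_inv hl h1)

theorem sp_le {l' : List (GV F V)} (hl : ∀ a ∈ l', a ∈ RS R) (h : ∀ a ∈ l, Sp l' a) (h1 : Sp l x) :
    Sp l' x := by
  induction l generalizing x with
  | nil => exact sp_of_Sc h1
  | cons a l ih =>
    have ih := fun {x} => ih (x := x) fun b hb => h b (List.mem_cons_of_mem _ hb)
    rcases h1 with h1 | h1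
    · exact ih h1
    · exact P.sp_of_mul_left hl (h a List.mem_cons_self) (ih h1)

theorem span_ind {p : End F V → Prop} (h1 : ∀ x ∈ R, p x.1) (h0 : p 0)
    (h2 : ∀ f g, p f → p g → p (f + g)) (h3 : ∀ (c : F) f, p f → p (c • f)) (f : End F V) :
    p f := by
  have hf : f ∈ Submodule.span F ((fun x : GV F V => x.1) '' (R : Set (GV F V))) := by
    rw [P.span]; trivial
  induction hf using Submodule.span_induction with
  | mem _ hx => obtain ⟨x, hx, rfl⟩ := hx; exact h1 x hx
  | zero => exact h0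
  | add f g _ _ a b => exact h2 f g a b
  | smul c f _ a => exact h3 c f a

theorem lin_zero {W : Type*} [AddCommGroup W] [Module F W] {Φ : End F V →ₗ[F] W}
    (h : ∀ x ∈ R, Φ x.1 = 0) (f : End F V) : Φ f = 0 :=
  P.span_ind (p := fun f => Φ f = 0) h (map_zero _) (fun f g a b => by rw [map_add, a, b, add_zero])
    (fun c f a => by rw [map_smul, a, smul_zero]) f

/-- Irreducibility. -/
theorem exists_ne {v : V} {φ : Dual F V} (hv : v ≠ 0) (hφ : φ ≠ 0) : ∃ y ∈ R, φ (y.1 v) ≠ 0 := by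
  by_contra hc
  push Not at hc
  obtain ⟨l, hl⟩ := Module.Projective.exists_dual_eq_one F hv
  refine hφ (LinearMap.ext fun w => ?_)
  simpa [hl] using P.lin_zero (Φ := φ ∘ₗ LinearMap.applyₗ v) hc (l.smulRight w)

theorem eq_top {W : Submodule F V} {v : V} (hv : v ≠ 0) (h : ∀ y ∈ R, y.1 v ∈ W) : W = ⊤ := by
  by_contra hc
  obtain ⟨u, hu⟩ : ∃ u, u ∉ W := by simpa [Submodule.eq_top_iff'] using hc
  obtain ⟨l, h1, h2⟩ := exists_dual_of_not_mem hu
  obtain ⟨y, hy, h3⟩ := P.exists_ne hv (φ := l) (by rintro rfl; simp at h2)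
  exact h3 (h1 _ (h y hy))

variable [FiniteDimensional F V]

theorem end_cent {f : End F V} (h : ∀ x ∈ R, x.1 * f = f * x.1) :
    ∃ c : F, f = c • (1 : End F V) :=
  C6.end_cent fun g => sub_eq_zero.1 (by
    simpa using P.lin_zero (Φ := LinearMap.mulRight F f - LinearMap.mulLeft F f)
      (fun x hx => by simpa [sub_eq_zero] using h x hx) g)

theorem cent (h : ∀ x ∈ R, ip x g = 0) : g ∈ Sc F V := by
  have := P.nt
  obtain ⟨c, hc⟩ := P.end_cent (f := g.1) fun x hx => congrArg Units.val (ip_eq_zero.1 (h x hx))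
  exact mem_Sc_of hc

theorem exists_anti (hx : x ∉ Sc F V) : ∃ r ∈ R, ip r x = 1 := by
  by_contra hc
  push Not at hc
  exact hx (P.cent fun r hr => (ip_cases r x).resolve_right (hc r hr))

/-- An element commuting with the centraliser of a list lies in the span of the list. -/
theorem sep (hl : ∀ a ∈ l, a ∈ RS R) (hz : z ∈ RS R)
    (h : ∀ r ∈ R, (∀ a ∈ l, ip r a = 0) → ip r z = 0) : Sp l z := by
  induction l generalizing z with
  | nil => exact P.cent fun r hr => h r hr (by simp)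
  | cons a l ih =>
    have ha := hl a List.mem_cons_self
    have ih := fun {z} => ih (z := z) fun b hb => hl b (List.mem_cons_of_mem _ hb)
    by_cases h1 : ∀ r ∈ R, (∀ a ∈ l, ip r a = 0) → ip r z = 0
    · exact Or.inl (ih hz h1)
    push Not at h1
    obtain ⟨r0, hr0, h1, h2⟩ := h1
    have h3 : ip r0 a = 1 := ip_one_of fun e => h2 (h r0 hr0 (by simpa [e] using h1))
    refine Or.inr (ih ((RS R).mul_mem ha hz) fun r hr h4 => ?_)
    rw [P.ip_mul_right ha hz (le_RS hr)]
    rcases ip_cases r a with e | e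
    · rw [e, h r hr (by simpa [e] using h4), add_zero]
    · have := h (r * r0) (R.mul_mem hr hr0) (List.forall_mem_cons.2 ⟨by
        rw [P.ip_mul_left (le_RS hr) (le_RS hr0) ha, e, h3]; rfl,
        fun b hb => ip_mul_zero (h4 b hb) (h1 b hb)⟩)
      rw [P.ip_mul_left (le_RS hr) (le_RS hr0) hz, ip_one_of h2] at this
      rw [e, add_comm, this]

theorem exists_sep (hl : ∀ a ∈ l, a ∈ RS R) (hz : z ∈ RS R) (h : ¬ Sp l z) :
    ∃ r ∈ R, (∀ a ∈ l, ip r a = 0) ∧ ip r z = 1 := by
  by_contra hc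
  push Not at hc
  exact h (P.sep hl hz fun r hr h1 => (ip_cases r z).resolve_right (hc r hr h1))

theorem trace_anti {f : End F V} (h : g.1 * f * (g⁻¹).1 = -f) : LinearMap.trace F V f = 0 := by
  have h1 := trace_conj g f
  rw [h, map_neg] at h1
  exact (mul_eq_zero.1 (by linear_combination -h1)).resolve_left P.two

theorem trace_zero (hx : x ∈ RS R) (hx' : x ∉ Sc F V) : LinearMap.trace F V x.1 = 0 := by
  obtain ⟨r, hr, h⟩ := P.exists_anti hx'
  exact P.trace_anti (g := r) (congrArg Units.val (P.conj_anti (le_RS hr) hx h))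

theorem finrank_ne : (finrank F V : F) ≠ 0 := fun h0 => by
  have := P.nt
  obtain ⟨f, hf⟩ := exists_trace_one (F := F) (V := V)
  rw [P.lin_zero (Φ := LinearMap.trace F V) (fun x hx => by
    by_cases h : x ∈ Sc F V
    · obtain ⟨c, -, e⟩ := h
      rw [e, map_smul, LinearMap.trace_one, h0, smul_zero]
    · exact P.trace_zero (le_RS hx) h) f] at hf
  exact zero_ne_one hf

/-- An element centralising `R` modulo scalars lies in `R` times the scalars. -/
theorem mem_RS_of_cent (h : ∀ x ∈ R, g * x * g⁻¹ * x⁻¹ ∈ Sc F V) : g ∈ RS R := by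
  have := P.nt
  obtain ⟨r, hr, h1⟩ : ∃ r ∈ R, LinearMap.trace F V (g * r).1 ≠ 0 := by
    by_contra hc
    push Not at hc
    obtain ⟨f, hf⟩ := exists_trace_one (F := F) (V := V)
    have := P.lin_zero (Φ := LinearMap.trace F V ∘ₗ LinearMap.mulLeft F g.1) hc ((g⁻¹).1 * f)
    rw [LinearMap.comp_apply, LinearMap.mulLeft_apply, ← mul_assoc, Units.mul_inv, one_mul,
      hf] at this
    exact one_ne_zero this
  have h2 : g * r ∈ Sc F V := P.cent fun x hx => by
    have h3 : (g * r) * x * (g * r)⁻¹ * x⁻¹ ∈ Sc F V := by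
      rw [show g * r * x * (g * r)⁻¹ = g * (r * x * r⁻¹) * g⁻¹ by group]
      rcases ip_cases r x with e | e
      · rw [conj_of_ip e]; exact h x hx
      · rw [P.conj_anti (le_RS hr) (le_RS hx) e]; simpa [neg_mem_Sc] using h x hx
    generalize g * r = k at h1 h3
    obtain ⟨c, -, e⟩ := h3
    have e1 : k.1 = c • (x.1 * k.1 * (x⁻¹).1) := by
      have : k = k * x * k⁻¹ * x⁻¹ * (x * k * x⁻¹) := by group
      conv_lhs => rw [this]
      rw [Units.val_mul, e]; simp
    have e2 := congrArg (LinearMap.trace F V) e1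
    rw [map_smul, trace_conj, smul_eq_mul] at e2
    rw [show c = 1 from mul_right_cancel₀ h1 (by rw [← e2, one_mul]), one_smul] at e1
    exact ip_of_conj (Units.ext e1.symm)
  simpa using (RS R).mul_mem (Sc_le_RS h2) (le_RS (R.inv_mem hr))

end Pa

end Cfsg.Agent.C6
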