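import Cfsg.Agent.C6.Basic

/-! Normalisers of symplectic type `2`-groups: the units `T a`, counting, transitivity. -/

set_option autoImplicit false
set_option linter.unusedSectionVars false
set_option linter.unusedVariables false
set_option linter.unusedSimpArgs false

namespace Cfsg.Agent.C6

open Module Cfsg.Agent.H27

universe u v

variable {F : Type u} {V : Type v} [Field F] [AddCommGroup V] [Module F V]
variable {R M : Subgroup (GV F V)} {a b c d g h r s u x y z : GV F V} {l l' : List (GV F V)}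

theorem val_sq (ha : a * a = -1) : a.1 * a.1 = -1 := congrArg Units.val ha

theorem inv_of_sq (ha : a * a = -1) : a⁻¹ = -a :=
  inv_eq_of_mul_eq_one_right (by rw [mul_neg, ha, neg_neg])

theorem inv_of_sq' (ha : a * a = 1) : a⁻¹ = a := inv_eq_of_mul_eq_one_right ha

theorem conj_sq (g x : GV F V) : g * x * g⁻¹ * (g * x * g⁻¹) = g * (x * x) * g⁻¹ := by group

theorem conj_sq_neg (ha : a * a = -1) (g : GV F V) : g * a * g⁻¹ * (g * a * g⁻¹) = -1 := by
  rw [conj_sq, ha]; simp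

theorem conj_sq_one (ha : a * a = 1) (g : GV F V) : g * a * g⁻¹ * (g * a * g⁻¹) = 1 := by
  rw [conj_sq, ha]; simp

section T

variable (h2 : (2 : F) ≠ 0)
include h2

theorem one_add_mul (ha : a * a = -1) : (1 + a.1) * ((2 : F)⁻¹ • (1 - a.1)) = 1 := by
  rw [mul_smul_comm, show (1 + a.1) * (1 - a.1) = 1 - a.1 * a.1 by noncomm_ring, val_sq ha,
    sub_neg_eq_add, ← two_smul F, smul_smul, inv_mul_cancel₀ h2, one_smul]

theorem T_val (ha : a * a = -1) : (T a).1 = 1 + a.1 := by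
  have : IsUnit (1 + a.1) := ⟨⟨_, _, one_add_mul h2 ha, by
    rw [smul_mul_assoc, show (1 - a.1) * (1 + a.1) = (1 + a.1) * (1 - a.1) by noncomm_ring,
      ← mul_smul_comm, one_add_mul h2 ha]⟩, rfl⟩
  rw [T, dif_pos this, IsUnit.unit_spec]

theorem T_inv_val (ha : a * a = -1) : ((T a)⁻¹).1 = (2 : F)⁻¹ • (1 - a.1) :=
  Units.inv_eq_of_mul_eq_one_right (by rw [T_val h2 ha, one_add_mul h2 ha])

theorem T_conj (ha : a * a = -1) (g : GV F V) : g * T a * g⁻¹ = T (g * a * g⁻¹) :=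
  Units.ext (by
    rw [T_val h2 (conj_sq_neg ha g), Units.val_mul, Units.val_mul, T_val h2 ha, mul_add, add_mul,
      mul_one, Units.mul_inv]; rfl)

theorem T_sq (ha : a * a = -1) : T a * T a = sc V 2 h2 * a :=
  Units.ext (by
    rw [Units.val_mul, Units.val_mul, T_val h2 ha, sc_val, smul_one_mul, two_smul,
      show (1 + a.1) * (1 + a.1) = a.1 + a.1 + (1 + a.1 * a.1) by noncomm_ring, val_sq ha]
    simp)

theorem T_neg (ha : a * a = -1) : T (-a) = sc V 2 h2 * (T a)⁻¹ :=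
  Units.ext (by
    rw [T_val h2 (by simpa using ha), Units.val_mul, T_inv_val h2 ha, sc_val, smul_one_mul,
      smul_smul, mul_inv_cancel₀ h2, one_smul, Units.val_neg, sub_eq_add_neg])

theorem ip_T (ha : a * a = -1) (h : ip a x = 0) : ip (T a) x = 0 :=
  ip_eq_zero.2 (Units.ext (by
    have := congrArg Units.val (ip_eq_zero.1 h)
    rw [Units.val_mul, Units.val_mul] at this ⊢
    rw [T_val h2 ha, add_mul, mul_add, this, one_mul, mul_one]))

theorem T_conj_comm (ha : a * a = -1) (h : ip a x = 0) : T a * x * (T a)⁻¹ = x :=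
  conj_of_ip (ip_T h2 ha h)

theorem T_conj_anti (ha : a * a = -1) (h : a * x = -(x * a)) : T a * x * (T a)⁻¹ = a * x := by
  rw [mul_inv_eq_iff_eq_mul]
  refine Units.ext ?_
  have h1 : x.1 * a.1 = -(a.1 * x.1) := by
    rw [← Units.val_mul, ← Units.val_mul, h, Units.val_neg, neg_neg]
  rw [Units.val_mul, Units.val_mul, Units.val_mul, T_val h2 ha, mul_add, mul_one, mul_assoc, h1,
    mul_neg, ← mul_assoc, val_sq ha, add_mul, one_mul, add_comm]
  simp

theorem T_inv_mul_mem (ha : a * a = -1) {X : Subgroup (GV F V)} (hX : Sc F V ≤ X) (haX : a ∈ X) :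
    T a * T a ∈ X := by
  rw [T_sq h2 ha]; exact X.mul_mem (hX (sc_mem _ _)) haX

end T

theorem NN.neg (P : Pa R) (h : NN R a) : NN R (-a) :=
  ⟨P.neg_mem h.1, by simpa using h.2.1, by simpa [neg_mem_Sc] using h.2.2⟩

theorem NN.RS (h : NN R a) : a ∈ RS R := le_RS h.1

theorem NN.conj (h : NN R a) (hB : Bk R M) (hg : g ∈ M) (h1 : g * a * g⁻¹ ∈ C6.RS R) :
    NN R (g * a * g⁻¹) := ⟨hB g hg a h.1 h1, conj_sq_neg h.2.1 g, by rw [conj_mem_Sc]; exact h.2.2⟩

theorem card_le_two_mul {G : Type*} [Group G] [Finite G] {X Y : Subgroup G}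
    (h : ∀ a ∈ Y, ∀ b ∈ Y, a ∉ X → b ∉ X → a * b ∈ X) : Nat.card Y ≤ 2 * Nat.card X := by
  change (Y : Set G).ncard ≤ 2 * (X : Set G).ncard
  by_cases h1 : ∀ a ∈ Y, a ∈ X
  · have := Set.ncard_le_ncard (show (Y : Set G) ⊆ X from h1)
    omega
  push Not at h1
  obtain ⟨a, ha, ha'⟩ := h1
  have : (Y : Set G) ⊆ X ∪ (fun x => a⁻¹ * x) '' X := fun b hb => by
    by_cases hb' : b ∈ X
    · exact Or.inl hb'
    · exact Or.inr ⟨_, h a ha b hb ha' hb', by simp⟩
  have h3 := (Set.ncard_le_ncard this).trans (Set.ncard_union_le _ _)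
  rw [Set.ncard_image_of_injective _ (mul_right_injective _)] at h3
  omega

variable [Finite F] [FiniteDimensional F V]

theorem ncard_Sp (l : List (GV F V)) :
    {z | Sp l z}.ncard ≤ 2 ^ l.length * Nat.card (Sc F V) := by
  have := finite_GV (F := F) (V := V)
  induction l with
  | nil => simp only [List.length_nil, pow_zero, one_mul]; exact le_rfl
  | cons a l ih =>
    have : {z | Sp (a :: l) z} ⊆ {z | Sp l z} ∪ (fun x => a⁻¹ * x) '' {z | Sp l z} :=
      fun z hz => hz.imp id fun h => ⟨_, h, by simp⟩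
    have h3 := (Set.ncard_le_ncard this).trans (Set.ncard_union_le _ _)
    rw [Set.ncard_image_of_injective _ (mul_right_injective _)] at h3
    rw [List.length_cons, pow_succ]
    nlinarith

theorem card_Sc_pos : 0 < Nat.card (Sc F V) :=
  have := finite_GV (F := F) (V := V)
  Nat.card_pos

namespace Pa

variable (P : Pa R)
include P

theorem T_mem_Nrm (ha : a ∈ RS R) (h : a * a = -1) : T a ∈ Nrm R := mem_Nrm fun x hx => by
  rcases ip_cases a x with e | e
  · rw [T_conj_comm P.two h e]; exact le_RS hx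
  · rw [T_conj_anti P.two h (P.anti ha (le_RS hx) e)]; exact (RS R).mul_mem ha (le_RS hx)

theorem T_conj_one (ha : a ∈ RS R) (h : a * a = -1) (hx : x ∈ RS R) (e : ip a x = 1) :
    T a * x * (T a)⁻¹ = a * x := T_conj_anti P.two h (P.anti ha hx e)

theorem card_RS : finrank F V ^ 2 * Nat.card (Sc F V) ≤ Nat.card (RS R) := by
  classical
  have := finite_GV (F := F) (V := V)
  let N := (Sc F V).subgroupOf (RS R)
  have := Fintype.ofFinite (RS R ⧸ N)
  rw [← N.index_mul_card, Nat.card_congr (Subgroup.subgroupOfEquivOfLe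
    (show Sc F V ≤ RS R from le_sup_right)).toEquiv]
  refine Nat.mul_le_mul_right _ ?_
  rw [Subgroup.index, Nat.card_eq_fintype_card, pow_two, ← Module.finrank_linearMap F F V V]
  refine finrank_le_of_span_eq_top (v := fun q : RS R ⧸ N => (q.out.1.1 : End F V))
    (eq_top_iff.2 fun f _ => P.span_ind (p := fun f => f ∈ Submodule.span F _) (fun x hx => ?_)
      (Submodule.zero_mem _) (fun _ _ => Submodule.add_mem _) (fun c _ => Submodule.smul_mem _ c) f)
  obtain ⟨s, hs⟩ := QuotientGroup.mk_out_eq_mul N (⟨x, le_RS hx⟩ : RS R)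
  obtain ⟨c, hc, e⟩ : s.1.1 ∈ Sc F V := s.2
  refine (Submodule.smul_mem_iff _ hc).1 (Submodule.subset_span
    ⟨QuotientGroup.mk (⟨x, le_RS hx⟩ : RS R), ?_⟩)
  simp only [hs, Subgroup.coe_mul, Units.val_mul, e, mul_smul_one]

theorem card_half {X : Subgroup (GV F V)} (hX : X ≤ RS R) (hx : x ∈ RS R) :
    Nat.card X ≤ 2 * Nat.card (X ⊓ Subgroup.centralizer {x} : Subgroup _) := by
  have := finite_GV (F := F) (V := V)
  refine card_le_two_mul fun a ha b hb h1 h2 => Subgroup.mem_inf.2 ⟨X.mul_mem ha hb, ?_⟩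
  simp only [Subgroup.mem_inf, ha, hb, true_and, Subgroup.mem_centralizer_singleton_iff,
    ← ip_eq_zero] at h1 h2 ⊢
  rw [P.ip_mul_left (hX ha) (hX hb) hx, ip_one_of h1, ip_one_of h2]; rfl

theorem card_list (hl : ∀ a ∈ l, a ∈ RS R) {X : Subgroup (GV F V)} (hX : X ≤ RS R) :
    ∃ Y ≤ X, (∀ y ∈ Y, ∀ a ∈ l, ip y a = 0) ∧ Nat.card X ≤ 2 ^ l.length * Nat.card Y := by
  induction l with
  | nil => exact ⟨X, le_rfl, by simp, by simp⟩
  | cons a l ih =>
    obtain ⟨Y, h1, h2, h3⟩ := ih fun b hb => hl b (List.mem_cons_of_mem _ hb)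
    have := P.card_half (h1.trans hX) (hl a List.mem_cons_self)
    refine ⟨Y ⊓ Subgroup.centralizer {a}, inf_le_left.trans h1, fun y hy =>
      List.forall_mem_cons.2 ⟨ip_eq_zero.2 (Subgroup.mem_centralizer_singleton_iff.1 hy.2),
        h2 y hy.1⟩, ?_⟩
    rw [List.length_cons, pow_succ, mul_assoc]
    exact h3.trans (Nat.mul_le_mul_left _ this)

theorem exists_comm (hl : ∀ a ∈ l, a ∈ RS R) (l' : List (GV F V))
    (hn : 2 ^ (l.length + l'.length) < finrank F V ^ 2) :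
    ∃ x ∈ R, (∀ a ∈ l, ip x a = 0) ∧ ¬ Sp l' x := by
  have := finite_GV (F := F) (V := V)
  by_contra hc
  push Not at hc
  obtain ⟨Y, h1, h2, h3⟩ := P.card_list hl le_rfl
  have h4 : (Y : Set (GV F V)) ⊆ {z | Sp l' z} := fun y hy => by
    obtain ⟨s, hs, r, hr, rfl⟩ := mem_RS.1 (h1 hy)
    exact (hc r hr fun a ha => (ip_smul_left hs r a).symm.trans (h2 _ hy a ha)).smul hs
  have h5 : Nat.card Y ≤ _ := (Set.ncard_le_ncard h4).trans (ncard_Sp l')
  have h6 := (P.card_RS.trans h3).trans (Nat.mul_le_mul_left _ h5)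
  rw [← mul_assoc, ← pow_add] at h6
  exact absurd (Nat.le_of_mul_le_mul_right h6 card_Sc_pos) (not_le.2 hn)

theorem exists_sq_of_anti (hx : x ∈ R) (hy : y ∈ R) (h : ip x y = 1) :
    x * x = -1 ∨ y * y = -1 ∨ x * y * (x * y) = -1 := by
  rcases P.sq x hx with h1 | h1
  · rcases P.sq y hy with h2 | h2
    · exact Or.inr (Or.inr (by rw [P.sq_mul_anti (le_RS hx) (le_RS hy) h, h1, h2, one_mul]))
    · exact Or.inr (Or.inl h2)
  · exact Or.inl h1

theorem exists_NN (hl : ∀ a ∈ l, a ∈ RS R) (hx : x ∈ R) (h1 : ∀ a ∈ l, ip x a = 0)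
    (h2 : ¬ Sp l x) : ∃ a, NN R a ∧ (∀ b ∈ l, ip a b = 0) ∧ ¬ Sp l a := by
  obtain ⟨y, hy, h3, h4⟩ := P.exists_sep hl (le_RS hx) h2
  have k : ∀ a, ip x a = 1 → ¬ Sp l a := fun a e h => by
    rw [h.ip h1] at e; exact zero_ne_one e
  have h5 : ip x y = 1 := (ip_comm _ _).trans h4
  have h6 : ip x (x * y) = 1 := by
    rw [P.ip_mul_right (le_RS hx) (le_RS hy) (le_RS hx), ip_self, h5, zero_add]
  rcases P.exists_sq_of_anti hx hy h5 with h | h | h
  · exact ⟨x, ⟨hx, h, fun e => h2 (sp_of_Sc e)⟩, h1, h2⟩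
  · exact ⟨y, ⟨hy, h, not_Sc_of_ip h4⟩, h3, k y h5⟩
  · exact ⟨x * y, ⟨R.mul_mem hx hy, h, not_Sc_of_ip' h6⟩,
      fun b hb => ip_mul_zero (h1 b hb) (h3 b hb), k _ h6⟩

theorem exists_NN' (hl : ∀ a ∈ l, a ∈ RS R) (hn : 2 ^ (2 * l.length) < finrank F V ^ 2) :
    ∃ a, NN R a ∧ (∀ b ∈ l, ip a b = 0) ∧ ¬ Sp l a := by
  obtain ⟨x, hx, h1, h2⟩ := P.exists_comm hl l (by rwa [← two_mul])
  exact P.exists_NN hl hx h1 h2

/-- Changing the square by an element `v` with square `-1`. -/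
theorem adj {v : GV F V} (hx : x ∈ R) (hv : v ∈ R) (h1 : v * v = -1) (h2 : ip x v = 0)
    {e : GV F V} (he : e = 1 ∨ e = -1) : ∃ x' ∈ R, x' * x' = e ∧ (x' = x ∨ x' = x * v) := by
  by_cases h : x * x = e
  · exact ⟨x, hx, h, Or.inl rfl⟩
  refine ⟨x * v, R.mul_mem hx hv, ?_, Or.inr rfl⟩
  rw [P.sq_mul_comm h2, h1]
  rcases P.sq x hx with h3 | h3 <;> rcases he with rfl | rfl <;> simp_all

theorem exists_anti2 (hl : ∀ a ∈ l, a ∈ RS R) (hx : x ∈ RS R) (hy : y ∈ RS R) (h1 : ¬ Sp l x)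
    (h2 : ¬ Sp l y) : ∃ u ∈ R, (∀ a ∈ l, ip u a = 0) ∧ ip u x = 1 ∧ ip u y = 1 := by
  obtain ⟨r, hr, a1, a2⟩ := P.exists_sep hl hx h1
  obtain ⟨r', hr', b1, b2⟩ := P.exists_sep hl hy h2
  rcases ip_cases r y with e | e
  · rcases ip_cases r' x with e' | e'
    · exact ⟨r * r', R.mul_mem hr hr', fun a ha => ip_mul_zero (a1 a ha) (b1 a ha),
        by rw [P.ip_mul_left (le_RS hr) (le_RS hr') hx, a2, e', add_zero],
        by rw [P.ip_mul_left (le_RS hr) (le_RS hr') hy, b2, e, zero_add]⟩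
    · exact ⟨r', hr', b1, e', b2⟩
  · exact ⟨r, hr, a1, a2, e⟩

theorem exists_sq (hR : Rich R) (hx : x ∈ R) (hy : y ∈ R) (hu : u ∈ R) (h0 : ip x y = 0)
    (h1 : ip u x = 1) (h2 : ip u y = 1) :
    ∃ v ∈ R, v * v = -1 ∧ ip v x = 0 ∧ ip v y = 0 ∧ ip v u = 0 := by
  rcases hR with ⟨j, hj, h3, h4⟩ | hn
  · exact ⟨j, hj, h4, ip_sc_left h3 _, ip_sc_left h3 _, ip_sc_left h3 _⟩
  have hl : ∀ a ∈ [x, y, u], a ∈ RS R := by simp [le_RS, *]
  obtain ⟨z, hz, h3, h4⟩ := P.exists_comm hl [x * y] (by simpa using hn)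
  obtain ⟨v, hv, h5, -⟩ := P.exists_NN hl hz h3 fun h => h4 (by
    simp only [List.forall_mem_cons] at h3
    have X := le_RS hx
    have Y := le_RS hy
    have U := le_RS hu
    have Z := le_RS hz
    have k : ∀ {t}, t ∈ Sc F V → ip t x = 0 ∧ ip t u = 0 := fun h => ⟨ip_sc_left h _, ip_sc_left h _⟩
    have e1 := ip_self x
    have e2 := ip_self u
    have e3 := (ip_comm y x).trans h0
    have e4 := (ip_comm x u).trans h1
    have e5 := (ip_comm y u).trans h2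
    rcases h with ((h | h) | h | h) | (h | h) | h | h
    · exact Or.inl h
    all_goals have h' := k h
    all_goals simp (disch := simp only [Subgroup.mul_mem, X, Y, U, Z]) only [P.ip_mul_left, h3.1,
      h3.2.2.1, e1, e2, e3, e4, e5, h1] at h'
    all_goals first | exact absurd h' (by decide) | skip
    exact Or.inr (by rwa [← mul_assoc, ← ip_eq_zero.1 h0] at h))
  exact ⟨v, hv.1, hv.2.1, h5 _ (by simp), h5 _ (by simp), h5 _ (by simp)⟩

theorem exists_anti_sq (hR : Rich R) (hx : x ∈ R) (hy : y ∈ R) (h0 : ip x y = 0)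
    (hx' : x ∉ Sc F V) (hy' : y ∉ Sc F V) {e : GV F V} (he : e = 1 ∨ e = -1) :
    ∃ u ∈ R, u * u = e ∧ ip u x = 1 ∧ ip u y = 1 := by
  obtain ⟨u, hu, -, h1, h2⟩ := P.exists_anti2 (l := []) (by simp) (le_RS hx) (le_RS hy) hx' hy'
  obtain ⟨v, hv, h3, h4, h5, h6⟩ := P.exists_sq hR hx hy hu h0 h1 h2
  obtain ⟨u', hu', h7, rfl | rfl⟩ := P.adj hu hv h3 ((ip_comm _ _).trans h6) he
  · exact ⟨u', hu, h7, h1, h2⟩
  · exact ⟨_, hu', h7, by rw [P.ip_mul_left (le_RS hu) (le_RS hv) (le_RS hx), h1, h4, add_zero],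
      by rw [P.ip_mul_left (le_RS hu) (le_RS hv) (le_RS hy), h2, h5, add_zero]⟩

theorem eq_or_neg (hx : x ∈ RS R) (h : x * x = y * y) (hs : x * y ∈ Sc F V) : y = x ∨ y = -x := by
  have := P.nt
  have h1 : x⁻¹ * y ∈ Sc F V := by
    simpa [mul_assoc] using (Sc F V).mul_mem ((Sc F V).inv_mem (P.sqS hx)) hs
  rcases Sc_sq h1 (by
    rw [← mul_assoc, Sc_comm h1, mul_assoc, mul_assoc, ← h]; simp) with e | e
  · exact Or.inl (inv_mul_eq_one.1 e).symm
  · exact Or.inr (by rw [inv_mul_eq_iff_eq_mul] at e; simpa using e)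

theorem bk_of_hasI (h : HasI R) (M : Subgroup (GV F V)) : Bk R M := fun c _ x hx h1 => by
  have := P.nt
  obtain ⟨j, hj, h2, h3⟩ := h
  obtain ⟨s, hs, r, hr, e⟩ := mem_RS.1 h1
  have h4 : s * s * (r * r) = x * x := by
    rw [← P.sq_mul_comm (ip_sc_left hs r), ← e, conj_sq, Sc_conj (P.sqS (le_RS hx))]
  have h5 : s * s = 1 ∨ s * s = -1 := by
    rcases P.sq r hr with a | a <;> rcases P.sq x hx with b | b <;> rw [a, b] at h4
    exacts [Or.inl (by simpa using h4), Or.inr (by simpa using h4),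
      Or.inr (by simpa [neg_eq_iff_eq_neg] using h4), Or.inl (by simpa using h4)]
  rw [e]
  refine R.mul_mem ?_ hr
  rcases h5 with h5 | h5
  · rcases Sc_sq hs h5 with rfl | rfl
    exacts [R.one_mem, P.neg]
  · rcases P.eq_or_neg (le_RS hj) (h3.trans h5.symm) ((Sc F V).mul_mem h2 hs) with rfl | rfl
    exacts [hj, P.neg_mem hj]

/-- With a scalar of order four every class contains elements with either square. -/
theorem exists_rep (h : HasI R) (hx : x ∈ RS R) {e : GV F V} (he : e = 1 ∨ e = -1) :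
    ∃ s ∈ Sc F V, s * x ∈ R ∧ s * x * (s * x) = e := by
  obtain ⟨j, hj, h2, h3⟩ := h
  obtain ⟨s, hs, r, hr, rfl⟩ := mem_RS.1 hx
  obtain ⟨r', hr', h4, rfl | rfl⟩ := P.adj hr hj h3 (ip_sc_right h2 r) he
  · exact ⟨s⁻¹, (Sc F V).inv_mem hs, by simpa using hr, by simpa using h4⟩
  · refine ⟨j * s⁻¹, (Sc F V).mul_mem h2 ((Sc F V).inv_mem hs), ?_, ?_⟩ <;>
      rw [mul_assoc j, inv_mul_cancel_left, Sc_comm h2] <;> assumption

end Pa

namespace CM

variable (P : CM R M)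
include P

theorem tt_inv (ha : NN R a) (hc : NN R c) : T a * (T c)⁻¹ ∈ M := by
  simpa [mul_assoc] using M.mul_mem (P.tt a c ha hc)
    (M.inv_mem (T_inv_mul_mem P.two hc.2.1 P.sc (P.le hc.1)))

theorem tt_Nrm (ha : NN R a) (hc : NN R c) : T a * T c ∈ M ⊓ Nrm R :=
  ⟨P.tt a c ha hc, (Nrm R).mul_mem (P.T_mem_Nrm ha.RS ha.2.1) (P.T_mem_Nrm hc.RS hc.2.1)⟩

theorem le_inf (hx : x ∈ R) : x ∈ M ⊓ Nrm R := ⟨P.le hx, RS_le_Nrm (le_RS hx)⟩

theorem trans_anti (hn : 4 < finrank F V ^ 2) (hx : x ∈ R) (hy : y ∈ R) (h : x * x = y * y)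
    (h1 : ip x y = 1) : ∃ k ∈ M ⊓ Nrm R, k * x * k⁻¹ = y := by
  have X := le_RS hx
  have Y := le_RS hy
  obtain ⟨e, he, h2, -⟩ := P.exists_NN' (l := [x]) (by simpa) (by simpa)
  have h3 : ip e x = 0 := h2 x (by simp)
  have h4 : ip (y * x) x = 1 := by
    rw [P.ip_mul_left Y X X, ip_self, ip_comm, h1, add_zero]
  have hd : NN R (y * x) := ⟨R.mul_mem hy hx, by
    rw [P.sq_mul_anti Y X ((ip_comm _ _).trans h1), ← h]
    rcases P.sq x hx with e | e <;> simp [e], not_Sc_of_ip h4⟩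
  have h5 : T (y * x) * T e * x * (T (y * x) * T e)⁻¹ = y * (x * x) := by
    rw [show T (y * x) * T e * x * (T (y * x) * T e)⁻¹ =
      T (y * x) * (T e * x * (T e)⁻¹) * (T (y * x))⁻¹ by group, T_conj_comm P.two he.2.1 h3,
      P.T_conj_one hd.RS hd.2.1 X h4, mul_assoc]
  rcases P.sq x hx with e1 | e1
  · exact ⟨_, P.tt_Nrm hd he, by rw [h5, e1, mul_one]⟩
  · refine ⟨x * (T (y * x) * T e), Subgroup.mul_mem _ (P.le_inf hx) (P.tt_Nrm hd he), ?_⟩
    rw [show x * (T (y * x) * T e) * x * (x * (T (y * x) * T e))⁻¹ =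
      x * (T (y * x) * T e * x * (T (y * x) * T e)⁻¹) * x⁻¹ by group, h5, e1, mul_neg, mul_one,
      mul_neg, neg_mul, P.conj_anti X Y h1, neg_neg]

/-- Non-scalar elements of `R` with the same square are conjugate. -/
theorem trans (hR : Rich R) (hn : 4 < finrank F V ^ 2) (hx : x ∈ R) (hy : y ∈ R)
    (hx' : x ∉ Sc F V) (hy' : y ∉ Sc F V) (h : x * x = y * y) :
    ∃ k ∈ M ⊓ Nrm R, k * x * k⁻¹ = y := by
  rcases ip_cases x y with h1 | h1
  · obtain ⟨u, hu, h2, h3, h4⟩ := P.exists_anti_sq hR hx hy h1 hx' hy' (P.sq x hx)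
    obtain ⟨k, hk, e⟩ := P.trans_anti hn hx hu h2.symm ((ip_comm _ _).trans h3)
    obtain ⟨k', hk', e'⟩ := P.trans_anti hn hu hy (h2.trans h) h4
    exact ⟨k' * k, Subgroup.mul_mem _ hk' hk, by rw [← e', ← e]; group⟩
  · exact P.trans_anti hn hx hy h h1

end CM

end Cfsg.Agent.C6
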