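import Cfsg.Agent.C6.N2

/-! Normalisers of symplectic type `2`-groups: strong closure. -/

set_option autoImplicit false
set_option linter.unusedSectionVars false
set_option linter.unusedVariables false
set_option linter.unusedSimpArgs false

namespace Cfsg.Agent.C6

open Module Cfsg.Agent.H27

universe u v

theorem ring_comm_aux {A : Type*} [Ring A] {a c w : A} (ha : a * a = -1) (hc : c * c = -1)
    (hw : w * w = 1) (h1 : w * a = a * w) (h2 : w * c = c * w) :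
    (1 + a) * (1 + -(a * w)) * ((1 + c) * (1 + c * w)) =
      (1 + c) * (1 + c * w) * ((1 + a) * (1 + -(a * w))) := by
  have e1 : (1 + a) * (1 + -(a * w)) = 1 + w + a * (1 - w) := by
    rw [add_mul, mul_add, mul_add, mul_neg a, ← mul_assoc, ha]; noncomm_ring
  have e2 : (1 + c) * (1 + c * w) = 1 - w + c * (1 + w) := by
    rw [add_mul, mul_add, mul_add, ← mul_assoc c, hc]; noncomm_ring
  have k1 : ∀ x, w * (a * x) = a * (w * x) := fun x => by rw [← mul_assoc, h1, mul_assoc]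
  have k2 : ∀ x, w * (c * x) = c * (w * x) := fun x => by rw [← mul_assoc, h2, mul_assoc]
  rw [e1, e2]
  simp only [mul_add, add_mul, mul_sub, sub_mul, mul_one, one_mul, mul_assoc, k1, k2, h1, h2, hw]
  abel

variable {F : Type u} {V : Type v} [Field F] [AddCommGroup V] [Module F V]
variable [Finite F] [FiniteDimensional F V]
variable {R R' M : Subgroup (GV F V)} {a b c d g h k r s u w x y z : GV F V}

/-- Two groups of symplectic type with the trivial intersection property. -/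
structure Two (R R' M : Subgroup (GV F V)) : Prop where
  p : Pa R
  p' : Pa R'
  le : RS R ≤ M
  le' : RS R' ≤ M
  ti : ∀ x ∈ RS R, x ∉ Sc F V → TI R M x
  ti' : ∀ x ∈ RS R', x ∉ Sc F V → TI R' M x
  dis : ∀ x ∈ RS R, x ∈ RS R' → x ∈ Sc F V

theorem Two.symm (S : Two R R' M) : Two R' R M :=
  ⟨S.p', S.p, S.le', S.le, S.ti', S.ti, fun x h h' => S.dis x h' h⟩

namespace Two

variable (S : Two R R' M)
include S

theorem c1 (hy : y ∈ RS R') (hy' : y ∉ Sc F V) (hx : x ∈ RS R) (h : y * x * y⁻¹ * x⁻¹ ∈ Sc F V) :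
    x ∈ Nrm R' := S.ti' y hy hy' x (S.le hx) (by
  have := (RS R').mul_mem ((RS R').inv_mem (Sc_le_RS h)) hy
  rwa [show (y * x * y⁻¹ * x⁻¹)⁻¹ * y = x * y * x⁻¹ by group] at this)

theorem c2 (hy : y ∈ RS R' ⊓ Nrm R) (hb : b ∈ RS R ⊓ Nrm R') : y * b * y⁻¹ * b⁻¹ ∈ Sc F V :=
  S.dis _ ((RS R).mul_mem (mem_Nrm_apply hy.2 hb.1) ((RS R).inv_mem hb.1)) (by
    have := (RS R').mul_mem hy.1 (mem_Nrm_apply hb.2 ((RS R').inv_mem hy.1))
    rwa [← mul_assoc, ← mul_assoc] at this)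

theorem c3 (hy : y ∈ RS R' ⊓ Nrm R) (hy' : y ∉ Sc F V) : ∃ x ∈ R, x ∉ Nrm R' := by
  by_contra hc
  push Not at hc
  exact hy' (S.dis y (S.p.mem_RS_of_cent fun x hx => S.c2 hy ⟨le_RS hx, hc x hx⟩) hy.1)

theorem c4 (hy : y ∈ RS R' ⊓ Nrm R) (hx : x ∈ RS R) : y * x * y⁻¹ * x⁻¹ ∈ RS R ⊓ Nrm R' := by
  have h1 := (RS R).mul_mem (mem_Nrm_apply hy.2 hx) ((RS R).inv_mem hx)
  refine ⟨h1, ?_⟩
  by_cases hy' : y ∈ Sc F V
  · rw [Sc_conj' hy', mul_inv_cancel]; exact (Nrm R').one_mem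
  refine S.c1 hy.1 hy' h1 ?_
  have := S.p.sqS ((RS R).inv_mem h1)
  rwa [show y * (y * x * y⁻¹ * x⁻¹) * y⁻¹ * (y * x * y⁻¹ * x⁻¹)⁻¹ = y * y * x * (y * y)⁻¹ *
    (y * x⁻¹ * y⁻¹) * (y * x * y⁻¹ * x⁻¹)⁻¹ by group, Sc_conj' (S.p'.sqS hy.1),
    show x * (y * x⁻¹ * y⁻¹) = (y * x * y⁻¹ * x⁻¹)⁻¹ by group]

theorem c5 (hx : x ∈ RS R) (hx' : x ∉ Nrm R') : ∃ f : (RS R' ⊓ Nrm R).map (QuotientGroup.mk' (Sc F V)) →
    (RS R ⊓ Nrm R').map (QuotientGroup.mk' (Sc F V)), Function.Injective f ∧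
      ∀ y, (f y).1 = y.1 * x * y.1⁻¹ * (x : GV F V ⧸ Sc F V)⁻¹ := by
  refine ⟨fun y => ⟨y.1 * x * y.1⁻¹ * (x : GV F V ⧸ Sc F V)⁻¹, ?_⟩, ?_, fun _ => rfl⟩
  · obtain ⟨_, y, hy, rfl⟩ := y
    exact ⟨_, S.c4 hy hx, rfl⟩
  · rintro ⟨_, y, hy, rfl⟩ ⟨_, y', hy', rfl⟩ e
    have e1 := congrArg Subtype.val e
    refine Subtype.ext (QuotientGroup.eq.2 (by_contra fun h => hx' (S.c1
      ((RS R').mul_mem ((RS R').inv_mem hy.1) hy'.1) h hx ?_)))
    rw [← QuotientGroup.eq_one_iff]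
    simp only [QuotientGroup.mk'_apply, mul_left_inj] at e1
    simp only [QuotientGroup.mk_mul, QuotientGroup.mk_inv]
    rw [show ∀ a b c : GV F V ⧸ Sc F V, a⁻¹ * b * c * (a⁻¹ * b)⁻¹ = a⁻¹ * (b * c * b⁻¹) * a by
      intros; group, ← e1]
    group

theorem ip_fix (hy : y ∈ RS R' ⊓ Nrm R) (hb : b ∈ RS R ⊓ Nrm R') (x : GV F V) :
    ip (y * x * y⁻¹) b = ip x b := by
  rw [← ip_conj y x b, ← ip_smul_right (S.c2 hy hb) _ b, inv_mul_cancel_right]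

theorem c6 (hy : y ∈ RS R' ⊓ Nrm R) (hy' : y ∉ Sc F V) (hb : b ∈ RS R ⊓ Nrm R')
    (hc : c ∈ RS R ⊓ Nrm R') : ip b c = 0 := by
  have := finite_GV (F := F) (V := V)
  obtain ⟨x, hx, hx'⟩ := S.c3 hy hy'
  obtain ⟨x', h1, h2⟩ := S.symm.c3 (S.c4 hy (le_RS hx)) fun e => hx' (S.c1 hy.1 hy' (le_RS hx) e)
  obtain ⟨f, f1, f2⟩ := S.c5 (le_RS hx) hx'
  obtain ⟨f', f1', -⟩ := S.symm.c5 (le_RS h1) h2
  obtain ⟨⟨_, y1, h3, rfl⟩, e⟩ :=
    (f1.bijective_of_nat_card_le (Nat.card_le_card_of_injective f' f1')).2 ⟨_, b, hb, rfl⟩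
  have e1 := (f2 _).symm.trans (congrArg Subtype.val e)
  have e2 : (y1 * x * y1⁻¹ * x⁻¹)⁻¹ * b ∈ Sc F V := QuotientGroup.eq.1 e1
  rw [← mul_inv_cancel_left (y1 * x * y1⁻¹ * x⁻¹) b, ← Sc_comm e2, ip_smul_left e2,
    S.p.ip_mul_left (mem_Nrm_apply h3.2 (le_RS hx)) ((RS R).inv_mem (le_RS hx)) hc.1,
    S.ip_fix h3 hc, ip_inv_left]
  exact CharTwo.add_self_eq_zero _

theorem c7 (hy : y ∈ RS R' ⊓ Nrm R) (hy' : y ∉ Sc F V) (hx : x ∈ RS R)
    (h : ∀ b ∈ RS R ⊓ Nrm R', ip x b = 0) : x ∈ Nrm R' := by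
  have h1 := mem_Nrm_apply hy.2 hx
  refine S.c1 hy.1 hy' hx (S.p.cent fun e he => ?_)
  have h2 := Subgroup.inv_mem _ hy
  have := h _ (S.c4 h2 (le_RS he))
  rw [S.p.ip_mul_right (mem_Nrm_apply h2.2 (le_RS he)) ((RS R).inv_mem (le_RS he)) hx,
    ip_inv_right, ← ip_conj y, show y * (y⁻¹ * e * y⁻¹⁻¹) * y⁻¹ = e by group] at this
  rw [ip_comm, S.p.ip_mul_left h1 ((RS R).inv_mem hx) (le_RS he), ip_inv_left, this]

theorem c8 (hy : y ∈ RS R' ⊓ Nrm R) (hy' : y ∉ Sc F V) {l : List (GV F V)} (hl : ∀ a ∈ l, a ∈ R)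
    (h1 : ∀ a ∈ l, ∀ b ∈ l, ip a b = 0) (h2 : ∀ x ∈ R, ∃ m, Sp l m ∧ x * m ∈ Nrm R')
    (hn : 2 ^ (2 * l.length) < finrank F V ^ 2) : False := by
  have hl' : ∀ a ∈ l, a ∈ RS R := fun a ha => le_RS (hl a ha)
  obtain ⟨z, hz, z1, z2⟩ := S.p.exists_comm hl' l (by rwa [← two_mul])
  obtain ⟨m, m1, m2⟩ := h2 z hz
  have m3 : m ∈ RS R := m1.mem (fun _ => Sc_le_RS) hl'
  have m4 := (RS R).mul_mem (le_RS hz) m3
  refine z2 (S.p.sp_of_mul_right hl' m1 (sp_of_Sc (S.p.cent fun x hx => ?_)))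
  obtain ⟨m', n1, n2⟩ := h2 x hx
  have n3 : m' ∈ RS R := n1.mem (fun _ => Sc_le_RS) hl'
  have := S.c6 hy hy' ⟨(RS R).mul_mem (le_RS hx) n3, n2⟩ ⟨m4, m2⟩
  rwa [S.p.ip_mul_left (le_RS hx) n3 m4, ip_comm m', n1.ip fun a ha => ip_mul_zero (z1 a ha)
    ((ip_comm _ _).trans (m1.ip (h1 a ha))), add_zero] at this

theorem exists_nn (hR : Rich R) (hn : 4 < finrank F V ^ 2) (hy : y ∈ RS R' ⊓ Nrm R)
    (hy' : y ∉ Sc F V) : ∃ a, NN R a ∧ a ∉ Nrm R' ∧ ip a (y * a * y⁻¹) = 0 := by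
  by_contra hc
  push Not at hc
  have P := S.p
  have k : ∀ x ∈ RS R, y * x * y⁻¹ ∈ RS R := fun x => mem_Nrm_apply hy.2
  have add : ∀ x ∈ RS R, ∀ x' ∈ RS R, ip (x * x') (y * (x * x') * y⁻¹) =
      ip x (y * x * y⁻¹) + ip x' (y * x' * y⁻¹) := fun x hx x' hx' => by
    have e : ip x' (y * x * y⁻¹) = ip x (y * x' * y⁻¹) := by
      rw [← ip_conj y, show y * (y * x * y⁻¹) * y⁻¹ = y * y * x * (y * y)⁻¹ by group,
        Sc_conj' (S.p'.sqS hy.1), ip_comm]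
    rw [show y * (x * x') * y⁻¹ = y * x * y⁻¹ * (y * x' * y⁻¹) by group,
      P.ip_mul_left hx hx' ((RS R).mul_mem (k x hx) (k x' hx')),
      P.ip_mul_right (k x hx) (k x' hx') hx, P.ip_mul_right (k x hx) (k x' hx') hx', e]
    generalize ip x (y * x' * y⁻¹) = t
    generalize ip x (y * x * y⁻¹) = t1
    generalize ip x' (y * x' * y⁻¹) = t2
    revert t t1 t2; decide
  have f0 : ∀ b ∈ RS R ⊓ Nrm R', ip b (y * b * y⁻¹) = 0 := fun b hb => by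
    rw [ip_comm, S.ip_fix hy hb, ip_self]
  have sc : ∀ s ∈ Sc F V, s ∈ Nrm R' := fun s hs => RS_le_Nrm (Sc_le_RS hs)
  obtain ⟨x3, h3, h4⟩ : ∃ x3 ∈ R, ∀ b ∈ R, b ∈ Nrm R' → ∀ x ∈ R, ip x (y * x * y⁻¹) = 0 ∨
      ip (x * (x3 * b)) (y * (x * (x3 * b)) * y⁻¹) = 0 := by
    by_cases h : ∀ x ∈ R, ip x (y * x * y⁻¹) = 0
    · exact ⟨1, R.one_mem, fun _ _ _ x hx => Or.inl (h x hx)⟩
    push Not at h
    obtain ⟨x3, h3, h4⟩ := h
    refine ⟨x3, h3, fun b hb hb' x hx => (ip_cases _ _).imp id fun e => ?_⟩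
    rw [add x (le_RS hx) _ (le_RS (R.mul_mem h3 hb)), add x3 (le_RS h3) b (le_RS hb), e,
      ip_one_of h4, f0 b ⟨le_RS hb, hb'⟩]; rfl
  by_cases h0 : ∀ x ∈ R, ip x (y * x * y⁻¹) = 0 → x ∈ Nrm R'
  · refine S.c8 hy hy' (l := [x3 * 1]) (by simpa) (by simp [ip_self]) (fun x hx => ?_) (by simpa)
    rcases h4 1 R.one_mem (Nrm R').one_mem x hx with e | e
    · exact ⟨1, sp_of_Sc (Sc F V).one_mem, by simpa using h0 x hx e⟩
    · exact ⟨_, P.sp_of_mem (by simpa using le_RS h3) (by simp), h0 _ (R.mul_mem hx (by simpa)) e⟩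
  push Not at h0
  obtain ⟨x1, h1, f1, n1⟩ := h0
  rcases hR with hI | hn'
  · obtain ⟨s, hs, a1, a2⟩ := P.exists_rep hI (le_RS h1) (Or.inr rfl)
    have a3 : s * x1 ∉ Nrm R' := fun e => n1 (by
      simpa using (Nrm R').mul_mem ((Nrm R').inv_mem (sc s hs)) e)
    exact hc _ ⟨a1, a2, fun e => a3 (sc _ e)⟩ a3 (by
      rw [add s (Sc_le_RS hs) x1 (le_RS h1), f1, ip_sc_left hs, add_zero])
  have sq1 : ∀ x ∈ R, ip x (y * x * y⁻¹) = 0 → x ∉ Nrm R' → x * x = 1 := fun x hx e e' =>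
    (P.sq x hx).resolve_right fun e1 => hc x ⟨hx, e1, fun e2 => e' (sc x e2)⟩ e' e
  have sq2 : ∀ x ∈ R, ip x (y * x * y⁻¹) = 0 → x ∉ Nrm R' → ∀ r ∈ R, r ∈ Nrm R' →
      (ip x r = 0 ↔ r * r = 1) := fun x hx e e' r hr hr' => by
    have := sq1 (x * r) (R.mul_mem hx hr) (by
      rw [add x (le_RS hx) r (le_RS hr), e, f0 r ⟨le_RS hr, hr'⟩, add_zero])
      fun e1 => e' (by simpa using (Nrm R').mul_mem e1 ((Nrm R').inv_mem hr'))
    rcases ip_cases x r with e1 | e1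
    · rw [P.sq_mul_comm e1, sq1 x hx e e', one_mul] at this
      simp [e1, this]
    · rw [P.sq_mul_anti (le_RS hx) (le_RS hr) e1, sq1 x hx e e', one_mul,
        neg_eq_iff_eq_neg] at this
      simpa [e1, this] using (P.ne_neg 1).symm
  have red : ∀ x ∈ RS R, (∀ r ∈ R, r ∈ Nrm R' → ip x r = 0) → x ∈ Nrm R' := fun x hx h =>
    S.c7 hy hy' hx fun b hb => by
      obtain ⟨s, hs, r, hr, rfl⟩ := mem_RS.1 hb.1
      rw [ip_smul_right hs]
      exact h r hr (by simpa using (Nrm R').mul_mem ((Nrm R').inv_mem (sc s hs)) hb.2)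
  have sq3 : ∀ x ∈ R, ip x (y * x * y⁻¹) = 0 → x ∈ Nrm R' ∨ x * x1 ∈ Nrm R' := fun x hx e =>
    or_iff_not_imp_left.2 fun e' => red _ (le_RS (R.mul_mem hx h1)) fun r hr hr' => by
      rw [P.ip_mul_left (le_RS hx) (le_RS h1) (le_RS hr)]
      have := (sq2 x hx e e' r hr hr').trans (sq2 x1 h1 f1 n1 r hr hr').symm
      generalize ip x r = t1 at this ⊢
      generalize ip x1 r = t2 at this ⊢
      revert t1 t2; decide
  obtain ⟨b, b1, b2, b3⟩ : ∃ b ∈ R, b ∈ Nrm R' ∧ ip x1 (x3 * b) = 0 := by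
    rcases ip_cases x1 x3 with e | e
    · exact ⟨1, R.one_mem, (Nrm R').one_mem, by simpa using e⟩
    · have := mt (red x1 (le_RS h1)) n1
      push Not at this
      obtain ⟨b, b1, b2, b3⟩ := this
      exact ⟨b, b1, b2, by
        rw [P.ip_mul_right (le_RS h3) (le_RS b1) (le_RS h1), e, ip_one_of b3]; rfl⟩
  have h5 := R.mul_mem h3 b1
  have hl : ∀ a ∈ [x1, x3 * b], a ∈ RS R := by simp [le_RS, *]
  have s1 : Sp [x1, x3 * b] x1 := P.sp_of_mem hl (by simp)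
  have s2 : Sp [x1, x3 * b] (x3 * b) := P.sp_of_mem hl (by simp)
  refine S.c8 hy hy' (l := [x1, x3 * b]) (by simp [*]) (by simp [ip_self, b3, ip_comm _ x1])
    (fun x hx => ?_) (by simpa)
  rcases h4 b b1 b2 x hx with e | e
  · rcases sq3 x hx e with e1 | e1
    · exact ⟨1, sp_of_Sc (Sc F V).one_mem, by simpa using e1⟩
    · exact ⟨_, s1, e1⟩
  · rcases sq3 _ (R.mul_mem hx h5) e with e1 | e1
    · exact ⟨_, s2, e1⟩
    · exact ⟨_, P.sp_mul hl s2 s1, by rwa [← mul_assoc]⟩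

theorem exists_anti (hw : w ∈ RS R ⊓ Nrm R') (hw' : w ∉ Sc F V) (w2 : w * w = 1) :
    ∃ y ∈ RS R' ⊓ Nrm R, y * w * y⁻¹ = -w := by
  classical
  have := finite_GV (F := F) (V := V)
  have := S.p.nt
  have := Fintype.ofFinite R'
  by_contra hc
  push Not at hc
  have h1 : ∀ y ∈ RS R' ⊓ Nrm R, y * w * y⁻¹ = w := fun y hy =>
    (S.p.eq_or_neg hw.1 (w2.trans (conj_sq_one w2 y).symm) (by
      have := conj_mem_Sc (g := w) |>.2 (S.c2 hy hw)
      rwa [show w * (y * w * y⁻¹ * w⁻¹) * w⁻¹ = w * (y * w * y⁻¹) * (w * w)⁻¹ by group, w2, inv_one,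
        mul_one] at this)).resolve_right (hc y hy)
  obtain ⟨c, e⟩ := S.p'.end_cent (f := ∑ r : R', (r.1 * w * r.1⁻¹).1) fun x hx => by
    rw [Finset.mul_sum, Finset.sum_mul]
    refine Fintype.sum_equiv (Equiv.mulLeft ⟨x, hx⟩) _ _ fun r => ?_
    rw [← Units.val_mul, ← Units.val_mul]
    congr 1
    simp only [Equiv.coe_mulLeft, Subgroup.coe_mul]
    group
  have e1 := congrArg (LinearMap.trace F V) e
  rw [map_sum, Finset.sum_eq_zero fun r _ => (trace_conj r.1 w.1).trans (S.p.trace_zero hw.1 hw'),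
    map_smul, LinearMap.trace_one, smul_eq_mul, eq_comm, mul_eq_zero,
    or_iff_left S.p.finrank_ne] at e1
  have e2 := congrArg (fun f => LinearMap.trace F V (f * (w⁻¹).1)) e
  simp only [e1, zero_smul, zero_mul, map_zero, Finset.sum_mul, map_sum, ← Units.val_mul] at e2
  let C := (Subgroup.centralizer {w}).subgroupOf R'
  rw [Finset.sum_congr rfl (g := fun r => if r ∈ C then (finrank F V : F) else 0) fun r _ => ?_,
    ← Finset.sum_filter, Finset.sum_const, nsmul_eq_mul, mul_eq_zero,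
    or_iff_left S.p.finrank_ne] at e2
  · have hp : IsPGroup 2 C := fun x => ⟨2, Subtype.ext (Subtype.ext (by
      change x.1.1 ^ (2 * 2) = 1
      rcases S.p'.sq x.1.1 x.1.2 with e | e <;> rw [pow_mul, pow_two x.1.1, e] <;> simp))⟩
    obtain ⟨n, hn⟩ := IsPGroup.iff_card.1 hp
    rw [← Fintype.card_subtype, ← Nat.card_eq_fintype_card] at e2
    change ((Nat.card C : ℕ) : F) = 0 at e2
    rw [hn, Nat.cast_pow, Nat.cast_ofNat] at e2
    exact pow_ne_zero n S.p.two e2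
  split_ifs with h
  · rw [show r.1 * w = w * r.1 from Subgroup.mem_centralizer_singleton_iff.1 h]
    simp
  · refine S.p'.trace_zero ?_ fun h2 => h (Subgroup.mem_centralizer_singleton_iff.2
      (mul_inv_eq_iff_eq_mul.1 (h1 r ⟨le_RS r.2, S.symm.c1 hw.1 hw' (le_RS r.2) ?_⟩)))
    · have := (RS R').mul_mem (le_RS r.2) (mem_Nrm_apply hw.2 (le_RS (R'.inv_mem r.2)))
      rwa [← mul_assoc, ← mul_assoc] at this
    · simpa [mul_assoc] using (Sc F V).inv_mem h2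

theorem false_of (P : CM R M) (hB : Bk R M) (hR : Rich R) (hn : 4 < finrank F V ^ 2)
    (hy : y ∈ RS R' ⊓ Nrm R) (hy' : y ∉ Sc F V) : False := by
  obtain ⟨a, ha, a1, a2⟩ := S.exists_nn hR hn hy hy'
  have ha' := ha.conj hB (S.le' hy.1) (mem_Nrm_apply hy.2 ha.RS)
  obtain ⟨a', e⟩ : ∃ a', a' = y * a * y⁻¹ := ⟨_, rfl⟩
  rw [← e] at a2 ha'
  have e0 : y * a * y⁻¹ * a⁻¹ = -(a * a') := by
    rw [← e, inv_of_sq ha.2.1, mul_neg, ip_eq_zero.1 a2]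
  have hw : a * a' ∈ RS R ⊓ Nrm R' := by
    simpa [e0] using neg_mem_of (X := RS R ⊓ Nrm R')
      ⟨Sc_le_RS neg_one_mem_Sc, RS_le_Nrm (Sc_le_RS neg_one_mem_Sc)⟩ (S.c4 hy ha.RS)
  have hw' : a * a' ∉ Sc F V := fun h => a1 (S.c1 hy.1 hy' ha.RS (by rwa [e0, neg_mem_Sc]))
  have w2 : a * a' * (a * a') = 1 := by rw [P.sq_mul_comm a2, ha.2.1, ha'.2.1]; simp
  have tc : ip (T a) (T a') = 0 := ip_T P.two ha.2.1 ((ip_comm _ _).trans
    (ip_T P.two ha'.2.1 ((ip_comm _ _).trans a2)))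
  have hh := P.tt_Nrm ha ha'
  have h1 : y * (T a * T a') * y⁻¹ = T a * T a' := by
    rw [show y * (T a * T a') * y⁻¹ = y * T a * y⁻¹ * (y * T a' * y⁻¹) by group,
      T_conj P.two ha.2.1, T_conj P.two ha'.2.1, ← e, ip_eq_zero.1 tc, e,
      show y * (y * a * y⁻¹) * y⁻¹ = y * y * a * (y * y)⁻¹ by group, Sc_conj' (S.p'.sqS hy.1)]
  have h2 : T a * T a' ∈ Nrm R' := S.ti' y hy.1 hy' _ hh.1 (by
    rw [conj_of_ip ((ip_comm _ _).trans (ip_of_conj h1))]; exact hy.1)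
  have h3 : T a * T a' * (T a * T a') = sc V 2 P.two * sc V 2 P.two * (a * a') := by
    rw [P.sq_mul_comm tc, T_sq P.two ha.2.1, T_sq P.two ha'.2.1, mul_assoc, mul_assoc,
      ← mul_assoc a, ← Sc_comm (sc_mem _ _) a, mul_assoc]
  obtain ⟨y', b1, b2⟩ := S.exists_anti hw hw' w2
  have h4 := S.symm.c6 hw hw' (b := T a * T a' * y' * (T a * T a')⁻¹) ⟨mem_Nrm_apply h2 b1.1,
    (Nrm R).mul_mem ((Nrm R).mul_mem hh.2 b1.2) ((Nrm R).inv_mem hh.2)⟩ b1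
  have w3 : ip a (a * a') = 0 := (ip_comm _ _).trans (ip_mul_zero (ip_self a)
    ((ip_comm _ _).trans a2))
  have w4 : a' = -(a * (a * a')) := by rw [← mul_assoc, ha.2.1]; simp
  have h5 : ip (T a * T a') (y' * (T a * T a') * y'⁻¹) = 0 := by
    have c2 := conj_sq_neg ha.2.1 y'
    have c3 : ip (y' * a * y'⁻¹) (a * a') = 0 := by
      rw [← ip_neg_right, ← b2, ip_conj, w3]
    have c4 : y' * a' * y'⁻¹ = y' * a * y'⁻¹ * (a * a') := by
      rw [← neg_neg (a * a'), ← b2, mul_neg]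
      conv_lhs => rw [w4]
      simp [mul_assoc]
    rw [show y' * (T a * T a') * y'⁻¹ = y' * T a * y'⁻¹ * (y' * T a' * y'⁻¹) by group,
      T_conj P.two ha.2.1, T_conj P.two ha'.2.1]
    have c5 := conj_sq_neg ha'.2.1 y'
    rw [c4] at c5 ⊢
    have c6 := ha'.2.1
    generalize a * a' = w at *
    generalize y' * a * y'⁻¹ = c at *
    subst w4
    refine ip_eq_zero.2 (Units.ext ?_)
    simp only [Units.val_mul, T_val P.two ha.2.1, T_val P.two c6, T_val P.two c2, T_val P.two c5,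
      Units.val_neg]
    exact ring_comm_aux (val_sq ha.2.1) (val_sq c2) (congrArg Units.val w2)
      (congrArg Units.val (ip_eq_zero.1 w3).symm) (congrArg Units.val (ip_eq_zero.1 c3).symm)
  generalize T a * T a' = h at *
  have h6 : h * h = y' * (h * h) * y'⁻¹ := by
    have e1 := ip_eq_zero.1 h4
    have e2 := ip_eq_zero.1 h5
    have e3 := Sc_conj' (S.p'.sqS b1.1) h
    have e4 : h * (y' * h * y'⁻¹)⁻¹ = y' * h * y'⁻¹ * h⁻¹ := by
      calc _ = y'⁻¹⁻¹ * (y'⁻¹ * (h * y' * h⁻¹ * y') * y'⁻¹) * y'⁻¹ := by group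
        _ = y' * h * y'⁻¹ * (y' * y' * h * (y' * y')⁻¹)⁻¹ := by rw [e1]; group
        _ = _ := by rw [e3]
    rw [← conj_sq]
    generalize y' * h * y'⁻¹ = h' at e2 e4
    calc h * h = h * h'⁻¹ * (h' * h) := by group
      _ = h' * h' := by rw [e4, ← e2]; group
  rw [h3, show ∀ s w : GV F V, y' * (s * w) * y'⁻¹ = y' * s * y'⁻¹ * (y' * w * y'⁻¹) by
    intros; group, b2, Sc_conj ((Sc F V).mul_mem (sc_mem _ _) (sc_mem _ _)), mul_neg] at h6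
  exact P.ne_neg _ h6

end Two

end Cfsg.Agent.C6
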