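import Cfsg.Agent.H27.SUDec

/-! Normalisers of symplectic type `2`-groups: definitions. -/

set_option autoImplicit false
set_option linter.unusedSectionVars false
set_option linter.unusedVariables false
set_option linter.unusedSimpArgs false

namespace Cfsg.Agent.C6

open Module Cfsg.Agent.H27

universe u v

/-- The general linear group as the unit group of the endomorphism ring. -/
abbrev GV (F : Type u) (V : Type v) [Field F] [AddCommGroup V] [Module F V] := (End F V)ˣ

variable {F : Type u} {V : Type v} [Field F] [AddCommGroup V] [Module F V]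

variable (F V) in
/-- The scalars. -/
def Sc : Subgroup (GV F V) where
  carrier := {g | ∃ c : F, c ≠ 0 ∧ g.1 = c • (1 : End F V)}
  mul_mem' := by
    rintro a b ⟨c, hc, h1⟩ ⟨d, hd, h2⟩
    exact ⟨c * d, mul_ne_zero hc hd, by rw [Units.val_mul, h1, h2, smul_mul_smul_comm, one_mul]⟩
  one_mem' := ⟨1, one_ne_zero, by simp⟩
  inv_mem' := by
    rintro a ⟨c, hc, h⟩
    refine ⟨c⁻¹, inv_ne_zero hc, Units.inv_eq_of_mul_eq_one_right ?_⟩
    rw [h, smul_mul_smul_comm, mul_inv_cancel₀ hc, one_mul, one_smul]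

variable (V) in
/-- The scalar transformation given by a non-zero field element. -/
def sc (c : F) (hc : c ≠ 0) : GV F V :=
  ⟨c • 1, c⁻¹ • 1, by rw [smul_mul_smul_comm, mul_inv_cancel₀ hc, one_mul, one_smul],
    by rw [smul_mul_smul_comm, inv_mul_cancel₀ hc, one_mul, one_smul]⟩

/-- `R` times the scalars. -/
def RS (R : Subgroup (GV F V)) : Subgroup (GV F V) := R ⊔ Sc F V

/-- The normaliser of `R` times the scalars. -/
def Nrm (R : Subgroup (GV F V)) : Subgroup (GV F V) :=
  Subgroup.normalizer (RS R : Set (GV F V))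

/-- An absolutely irreducible group whose elements have square `±1` and commute up to sign. -/
structure Pa (R : Subgroup (GV F V)) : Prop where
  two : (2 : F) ≠ 0
  nt : Nontrivial V
  neg : -1 ∈ R
  comm : ∀ x ∈ R, ∀ y ∈ R, x * y = y * x ∨ x * y = -(y * x)
  sq : ∀ x ∈ R, x * x = 1 ∨ x * x = -1
  span : Submodule.span F ((fun x : GV F V => x.1) '' (R : Set (GV F V))) = ⊤

/-- The non-scalar elements of `R` with square `-1`. -/
def NN (R : Subgroup (GV F V)) (a : GV F V) : Prop := a ∈ R ∧ a * a = -1 ∧ a ∉ Sc F V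

open Classical in
/-- The unit `1 + a`. -/
noncomputable def T (a : GV F V) : GV F V := if h : IsUnit (1 + a.1) then h.unit else 1

/-- `M` contains the scalars, `R` and the even part of the Clifford group. -/
structure CM (R M : Subgroup (GV F V)) : Prop extends Pa R where
  sc : Sc F V ≤ M
  le : R ≤ M
  tt : ∀ a c, NN R a → NN R c → T a * T c ∈ M

/-- Conjugates of elements of `R` lying in `R` times the scalars lie in `R`. -/
def Bk (R M : Subgroup (GV F V)) : Prop :=
  ∀ c ∈ M, ∀ x ∈ R, c * x * c⁻¹ ∈ RS R → c * x * c⁻¹ ∈ R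

/-- `R` contains a scalar of order four. -/
def HasI (R : Subgroup (GV F V)) : Prop := ∃ j ∈ R, j ∈ Sc F V ∧ j * j = -1

/-- Every element of `R` with square `-1` has its unit `T` in `M`. -/
def OddM (R M : Subgroup (GV F V)) : Prop := ∀ a, NN R a → T a ∈ M

/-- There is room for prescribing squares. -/
def Rich (R : Subgroup (GV F V)) : Prop := HasI R ∨ 16 < finrank F V ^ 2

open Classical in
/-- The commutation form. -/
noncomputable def ip (x y : GV F V) : ZMod 2 := if x * y = y * x then 0 else 1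

/-- The span of a list modulo scalars. -/
def Sp : List (GV F V) → GV F V → Prop
  | [], z => z ∈ Sc F V
  | a :: l, z => Sp l z ∨ Sp l (a * z)

variable (F V) in
/-- Units of the endomorphism ring as linear equivalences. -/
def toE : GV F V ≃* (V ≃ₗ[F] V) := LinearMap.GeneralLinearGroup.generalLinearEquiv F V

/-- A subgroup as a group of linear equivalences. -/
def ME (M : Subgroup (GV F V)) : Subgroup (V ≃ₗ[F] V) := M.map (toE F V : GV F V →* _)

/-- `M` contains a transvection. -/
def Big (M : Subgroup (GV F V)) : Prop :=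
  ∃ (v : V) (φ : Dual F V), v ≠ 0 ∧ φ ≠ 0 ∧ φ v = 0 ∧ T1 (ME M) v φ

/-- Elements of the prime field. -/
def PF (x : F) : Prop := ∃ n : ℕ, x = n

/-- Isometries. -/
def Isom {σ : F →+* F} (B : V →ₛₗ[σ] V →ₗ[F] F) (g : GV F V) : Prop :=
  ∀ x y, B (g.1 x) (g.1 y) = B x y

/-- Every element of `M` is an isometry up to a scalar. -/
def SI {σ : F →+* F} (B : V →ₛₗ[σ] V →ₗ[F] F) (M : Subgroup (GV F V)) : Prop :=
  ∀ c ∈ M, ∃ s ∈ Sc F V, Isom B (s * c)

/-- An involution of the field whose fixed field is the prime field. -/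
structure UF (σ : F →+* F) : Prop where
  pf : ∀ a, σ a = a → PF a
  uh : ∀ (W : Type v) [AddCommGroup W] [Module F W] [FiniteDimensional F W]
    (C : W →ₛₗ[σ] W →ₗ[F] F), (∀ x y, C y x = -σ (C x y)) → (∀ x, (∀ y, C x y = 0) → x = 0) →
    UH C

/-- The unitary type. -/
structure UT {σ : F →+* F} (B : V →ₛₗ[σ] V →ₗ[F] F) (R M : Subgroup (GV F V)) : Prop where
  uf : UF.{u, v} σ
  skew : ∀ x y, B y x = -σ (B x y)
  nd : ∀ x, (∀ y, B x y = 0) → x = 0
  iso : ∀ x ∈ R, Isom B x
  si : SI B M

/-- The linear or the unitary type. -/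
def Ty (σ : F →+* F) (R M : Subgroup (GV F V)) : Prop :=
  ((3 : F) ≠ 0 ∧ ∀ a : F, PF a) ∨ ∃ B : V →ₛₗ[σ] V →ₗ[F] F, UT B R M

/-- The real types: a symmetric or alternating form over a prime field. -/
structure RT (ε : F) (B : V →ₗ[F] V →ₗ[F] F) (R M : Subgroup (GV F V)) : Prop where
  pf : ∀ a : F, PF a
  eps : ε = 1 ∨ ε = -1
  sym : ∀ x y, B y x = ε * B x y
  nd : ∀ x, (∀ y, B x y = 0) → x = 0
  iso : ∀ x ∈ R, Isom B x
  si : SI B M

/-- The fixed space of `w`. -/
def Vp (w : GV F V) : Submodule F V := LinearMap.ker (w.1 - 1)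

/-- `g` acts on `W` as `h`. -/
def On (W : Submodule F V) (g : GV F V) (h : GV F W) : Prop := ∀ x : W, (h.1 x : V) = g.1 x

theorem On.mul {W : Submodule F V} {g g' : GV F V} {h h' : GV F W} (a : On W g h)
    (b : On W g' h') : On W (g * g') (h * h') := fun x => by
  rw [Units.val_mul, Units.val_mul, End.mul_apply, End.mul_apply, a, b]

theorem On.one {W : Submodule F V} : On W (1 : GV F V) 1 := fun _ => rfl

theorem val_inv_apply (g : GV F V) (x : V) : (g⁻¹).1 (g.1 x) = x := by
  rw [← End.mul_apply, Units.inv_mul]; rfl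

theorem val_apply_inv (g : GV F V) (x : V) : g.1 ((g⁻¹).1 x) = x := by
  rw [← End.mul_apply, Units.mul_inv]; rfl

theorem On.inv {W : Submodule F V} {g : GV F V} {h : GV F W} (a : On W g h) :
    On W g⁻¹ h⁻¹ := fun x => by
  rw [← val_inv_apply g ((h⁻¹).1 x : V), ← a, val_apply_inv]

/-- The group induced on an invariant subspace. -/
def rsW (W : Submodule F V) (X : Subgroup (GV F V)) : Subgroup (GV F W) where
  carrier := {h | ∃ g ∈ X, On W g h}
  mul_mem' := by
    rintro _ _ ⟨g, hg, a⟩ ⟨g', hg', b⟩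
    exact ⟨_, X.mul_mem hg hg', a.mul b⟩
  one_mem' := ⟨1, X.one_mem, On.one⟩
  inv_mem' := by
    rintro _ ⟨g, hg, a⟩
    exact ⟨_, X.inv_mem hg, a.inv⟩

/-- The group induced by the centraliser of `w` on the fixed space of `w`. -/
def rs (w : GV F V) (X : Subgroup (GV F V)) : Subgroup (GV F (Vp w)) :=
  rsW (Vp w) (X ⊓ Subgroup.centralizer {w})

/-- The elements acting as scalars on `W`. -/
def ScOn (W : Submodule F V) : Subgroup (GV F V) where
  carrier := {g | ∃ c : F, c ≠ 0 ∧ ∀ x ∈ W, g.1 x = c • x}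
  mul_mem' := by
    rintro a b ⟨c, hc, h1⟩ ⟨d, hd, h2⟩
    exact ⟨c * d, mul_ne_zero hc hd, fun x hx => by
      rw [Units.val_mul, End.mul_apply, h2 x hx, map_smul, h1 x hx, smul_smul, mul_comm]⟩
  one_mem' := ⟨1, one_ne_zero, fun x _ => by simp⟩
  inv_mem' := by
    rintro a ⟨c, hc, h⟩
    refine ⟨c⁻¹, inv_ne_zero hc, fun x hx => ?_⟩
    rw [← val_inv_apply a (c⁻¹ • x), map_smul, h x hx, smul_smul, inv_mul_cancel₀ hc, one_smul]

/-- The group induced on the fixed space of `w` by the elements which are scalar on the fixed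
space of `-w`. -/
def kr (w : GV F V) (X : Subgroup (GV F V)) : Subgroup (GV F (Vp w)) :=
  rs w (X ⊓ ScOn (Vp (-w)))

end Cfsg.Agent.C6
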