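import Cfsg.Agent.H98.ExtraCard

/-! Groups of symplectic type of exponent four with centre of order two have class two. -/

set_option autoImplicit false
set_option linter.unusedSectionVars false
set_option linter.unusedVariables false
set_option linter.unusedSimpArgs false

namespace Cfsg.Agent.C6

open Subgroup
open scoped commutatorElement

variable {G : Type*} [Group G]

theorem comm_le_of_two [Group.IsNilpotent G]
    (h2 : Subgroup.upperCentralSeries G 2 ⊓ commutator G ≤ center G) : commutator G ≤ center G := by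
  have key : ∀ i, ∀ d ∈ commutator G, d ∈ Subgroup.upperCentralSeries G i → d ∈ center G := by
    intro i
    induction i with
    | zero => intro d _ hd; rw [Subgroup.upperCentralSeries_zero, mem_bot] at hd; simp [hd]
    | succ i ih =>
      intro d hd hdi
      refine h2 ⟨Subgroup.mem_upperCentralSeries_succ_iff.2 fun y => ?_, hd⟩
      rw [Subgroup.upperCentralSeries_one]
      exact ih _ (commutator_mem_commutator (mem_top d) (mem_top y))
        (Subgroup.mem_upperCentralSeries_succ_iff.1 hdi y)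
  obtain ⟨n, hn⟩ := Group.IsNilpotent.nilpotent G
  exact fun d hd => key n d hd (by rw [hn]; trivial)

theorem comm_index_two {C : Subgroup G} [C.Normal] {t : G} (hc : ∀ x ∈ C, ∀ y ∈ C, x * y = y * x)
    (h : ∀ g, g ∈ C ∨ g * t⁻¹ ∈ C) {b : G} (hb : b ∈ commutator G) :
    ∃ c ∈ C, b = c * (t * c⁻¹ * t⁻¹) := by
  have n : ∀ {c}, c ∈ C → t * c * t⁻¹ ∈ C := fun h => ‹C.Normal›.conj_mem _ h t
  let K : Subgroup G :=
    { carrier := {b | ∃ c ∈ C, b = c * (t * c⁻¹ * t⁻¹)}
      one_mem' := ⟨1, one_mem _, by simp⟩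
      mul_mem' := by
        rintro _ _ ⟨c, h1, rfl⟩ ⟨d, h2, rfl⟩
        refine ⟨c * d, mul_mem h1 h2, ?_⟩
        rw [hc _ (mul_mem h1 (n (inv_mem h1))) _ (mul_mem h2 (n (inv_mem h2))), mul_assoc d,
          ← mul_assoc _ c, ← hc c h1 _ (n (inv_mem h2)), ← mul_assoc d, ← mul_assoc d, hc d h2 c h1]
        group
      inv_mem' := by
        rintro _ ⟨c, h1, rfl⟩
        exact ⟨c⁻¹, inv_mem h1, by
          rw [inv_inv, hc _ (inv_mem h1) _ (n h1)]; group⟩ }
  have A : ∀ g ∈ C, ∀ h', ⁅g, h'⁆ ∈ K := fun g hg h' => by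
    rw [commutatorElement_def]
    rcases h h' with e | e
    · rw [hc g hg h' e]; simp
    · refine ⟨g, hg, ?_⟩
      rw [show g * h' * g⁻¹ * h'⁻¹ = g * (h' * t⁻¹ * (t * g⁻¹ * t⁻¹) * (h' * t⁻¹)⁻¹) by group,
        hc _ e _ (n (inv_mem hg)), mul_inv_cancel_right]
  refine (show commutator G ≤ K from commutator_le.2 fun g _ h' _ => ?_) hb
  rcases h g with e | e
  · exact A g e h'
  rcases h h' with e' | e'
  · simpa using K.inv_mem (A h' e' g)
  have := mul_mem e (inv_mem e')
  refine ⟨_, this, ?_⟩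
  rw [hc _ this _ (n (inv_mem this)), ← mul_assoc, ← hc _ e _ (n (inv_mem this)),
    commutatorElement_def]
  group

theorem sq_comm_of {x y z : G} (zc : ∀ g, g * z = z * g) (zz : z * z = 1)
    (h : x * y = y * x ∨ x * y = z * (y * x)) : y * (x * x) = x * x * y := by
  rcases h with e | e
  · rw [mul_assoc, e, ← mul_assoc x, e, mul_assoc]
  · rw [mul_assoc, e, ← mul_assoc x, zc x, mul_assoc z, ← mul_assoc x, e, mul_assoc z,
      ← mul_assoc z, zz, one_mul, mul_assoc]

theorem comm_le_center_two [Finite G] (hp : IsPGroup 2 G) (h4 : ∀ x : G, x ^ 4 = 1)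
    (hA : ∀ A : Subgroup G, A.Characteristic → IsMulCommutative A → IsCyclic A)
    (hz : Nat.card (center G) = 2) : commutator G ≤ center G := by
  have : Fact (Nat.Prime 2) := ⟨Nat.prime_two⟩
  have := hp.isNilpotent
  refine comm_le_of_two ?_
  set A := Subgroup.upperCentralSeries G 2 ⊓ commutator G with hAd
  have : A.Characteristic := by rw [hAd]; infer_instance
  have cA : ∀ x ∈ A, ∀ y ∈ A, x * y = y * x := fun x hx y hy => H98.commute_of_mem_ucsTwo hx.1 hy.2
  have cm : ∀ {X : Subgroup G}, (∀ x ∈ X, ∀ y ∈ X, x * y = y * x) → IsMulCommutative X :=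
    fun h => ⟨⟨fun x y => Subtype.ext (h _ x.2 _ y.2)⟩⟩
  obtain ⟨⟨b, hb⟩, hb'⟩ := (hA A inferInstance (cm cA)).exists_generator
  have gen : ∀ x ∈ A, x ∈ zpowers b := fun x hx => by
    obtain ⟨n, e⟩ := hb' ⟨x, hx⟩
    exact ⟨n, congrArg Subtype.val e⟩
  by_contra hn
  have bZ : b ∉ center G := fun h => hn fun x hx => zpowers_le.2 h (gen x hx)
  obtain ⟨⟨z, zZ⟩, z1, z2⟩ := (Nat.card_eq_two_iff' (1 : center G)).1 hz
  have hZ : ∀ t ∈ center G, t = 1 ∨ t = z := fun t ht => or_iff_not_imp_left.2 fun e =>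
    congrArg Subtype.val (z2 ⟨t, ht⟩ fun h => e (congrArg Subtype.val h))
  have z3 : z ≠ 1 := fun e => z1 (Subtype.ext e)
  have zc := mem_center_iff.1 zZ
  have zz : z * z = 1 := (hZ _ (mul_mem zZ zZ)).resolve_right (by simpa using z3)
  have bc : ∀ g, b * g = g * b ∨ b * g = z * (g * b) := fun g => by
    have := Subgroup.mem_upperCentralSeries_succ_iff.1 hb.1 g
    rw [Subgroup.upperCentralSeries_one] at this
    exact (hZ _ this).imp (fun e => by rw [← one_mul (g * b), ← e]; group) fun e => by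
      rw [← e]; group
  obtain ⟨t, ht⟩ : ∃ t, b * t ≠ t * b := by
    by_contra h
    push Not at h
    exact bZ (mem_center_iff.2 fun g => (h g).symm)
  have bt := (bc t).resolve_left ht
  have b2 : b * b = z := by
    refine (hZ _ (mem_center_iff.2 fun g => sq_comm_of zc zz (bc g))).resolve_left fun e => bZ ?_
    · have zA : z ∈ A := ⟨Subgroup.upperCentralSeries_mono G one_le_two (by rwa [Subgroup.upperCentralSeries_one]), by
        rw [show z = ⁅b, t⁆ by rw [commutatorElement_def, bt]; group]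
        exact commutator_mem_commutator (mem_top _) (mem_top _)⟩
      obtain ⟨n, rfl⟩ := gen z zA
      have e' : b ^ (2 : ℤ) = 1 := by rw [zpow_two, e]
      rcases Int.even_or_odd' n with ⟨m, rfl | rfl⟩
      · exact (z3 (by simp only [zpow_mul, e', one_zpow])).elim
      · simpa only [zpow_add, zpow_mul, e', one_zpow, one_mul, zpow_one] using zZ
  have sqA : ∀ x ∈ A, x * x = 1 → x ∈ center G := fun x hx e => by
    obtain ⟨n, rfl⟩ := gen x hx
    have e' : b ^ (2 : ℤ) = z := by rw [zpow_two, b2]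
    rcases Int.even_or_odd' n with ⟨m, rfl | rfl⟩
    · simpa only [zpow_mul, e'] using zpow_mem zZ m
    · refine (z3 ?_).elim
      have e1 : b ^ (4 : ℤ) = 1 := by exact_mod_cast h4 b
      simpa only [← zpow_add, show 2 * m + 1 + (2 * m + 1) = 4 * m + 2 by ring, zpow_add b (4 * m),
        zpow_mul, e1, one_zpow, one_mul, e'] using e
  set C := centralizer (A : Set G) with hCd
  have : C.Characteristic := by rw [hCd]; infer_instance
  have mC : ∀ g, g ∈ C ↔ b * g = g * b := fun g => ⟨fun h => h b hb, fun h x hx => by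
    obtain ⟨n, rfl⟩ := gen x hx
    exact (Commute.zpow_left h n).eq⟩
  have L : ∀ X : Subgroup G, X.Characteristic → X ≤ C → (∀ x ∈ X, ∀ y ∈ X, x * y = y * x) →
      X ≤ A := fun X hX h1 h2 => by
    have := hA (X ⊔ A) inferInstance (cm fun x hx y hy => by
      rw [← SetLike.mem_coe, mul_normal] at hx hy
      obtain ⟨x, hx, a, ha, rfl⟩ := hx
      obtain ⟨y, hy, a', ha', rfl⟩ := hy
      exact (Commute.mul_left (Commute.mul_right (h2 x hx y hy) (h1 hx a' ha').symm)
        (Commute.mul_right (h1 hy a ha) (cA a ha a' ha'))).eq)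
    have h3 : Nat.card (X ⊔ A : Subgroup G) ∣ 4 := by
      rw [← IsCyclic.exponent_eq_card]
      exact Monoid.exponent_dvd_of_forall_pow_eq_one fun x => Subtype.ext (h4 x)
    have h5 : orderOf b = 2 ^ (1 + 1) := orderOf_eq_prime_pow (by rwa [pow_one, sq, b2]) (h4 b)
    rw [eq_of_le_of_card_ge (le_sup_right : A ≤ X ⊔ A) ((Nat.le_of_dvd (by norm_num) h3).trans (by
      have := card_le_of_le (zpowers_le.2 hb)
      rwa [Nat.card_zpowers, h5] at this))]
    exact le_sup_left
  have L' : ∀ X : Subgroup C, X.Characteristic → (∀ x ∈ X, ∀ y ∈ X, x * y = y * x) →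
      ∀ x ∈ X, x.1 ∈ A := fun X hX h x hx =>
    L (X.map C.subtype) inferInstance (map_subtype_le _) (by
      rintro _ ⟨x, hx, rfl⟩ _ ⟨y, hy, rfl⟩
      exact congrArg Subtype.val (h x hx y hy)) ⟨x, hx, rfl⟩
  have c2 : commutator C ≤ center C := H98.commutator_le_center_of_char fun X hX h x hx =>
    mem_center_iff.2 fun g => Subtype.ext (g.2 _ (L' X hX h x hx)).symm
  have cZ := L' (center C) inferInstance fun x hx y _ => (mem_center_iff.1 hx y).symm
  have c3 : ∀ x y : C, ⁅x.1, y.1⁆ ∈ center G := fun x y => by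
    have h1 := c2 (commutator_mem_commutator (mem_top x) (mem_top y))
    refine sqA _ (cZ _ h1) ?_
    have a1 := H98.mul_pow_of_central_comm (x := y) (y := x) (fun g => (mem_center_iff.1 h1 g).symm)
      (by rw [commutatorElement_def]; group) 4
    have h4' : ∀ x : C, x ^ 4 = 1 := fun x => Subtype.ext (h4 x)
    rw [h4', h4', h4', mul_one, mul_one, show Nat.choose 4 2 = 4 + 2 from rfl, pow_add, h4',
      one_mul, sq] at a1
    exact congrArg Subtype.val a1.symm
  have c4 : ∀ c ∈ C, c * c ∈ center G := fun c hc => by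
    refine sqA _ (cZ (⟨c, hc⟩ * ⟨c, hc⟩) (mem_center_iff.2 fun g => Subtype.ext ?_))
      (by rw [← h4 c]; simp only [pow_succ, pow_zero, one_mul, mul_assoc])
    have e : c * g.1 = ⁅c, g.1⁆ * (g.1 * c) := by rw [commutatorElement_def]; group
    exact sq_comm_of zc zz ((hZ _ (c3 ⟨c, hc⟩ g)).imp (fun h => by rwa [h, one_mul] at e)
      fun h => by rwa [h] at e)
  let π := QuotientGroup.mk' (center G)
  have : (C.map π).Normal := Normal.map inferInstance π (QuotientGroup.mk'_surjective _)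
  obtain ⟨_, ⟨c, hc, rfl⟩, e⟩ := comm_index_two (C := C.map π) (t := π t) (b := π b) (by
      rintro _ ⟨x, hx, rfl⟩ _ ⟨y, hy, rfl⟩
      rw [← commutatorElement_eq_one_iff_mul_comm, ← map_commutatorElement]
      exact (QuotientGroup.eq_one_iff _).2 (c3 ⟨x, hx⟩ ⟨y, hy⟩))
    (fun g => by
      obtain ⟨g, rfl⟩ := QuotientGroup.mk'_surjective _ g
      refine (bc g).imp (fun e => ⟨g, (mC g).2 e, rfl⟩) fun e => ⟨g * t⁻¹, (mC _).2 ?_, rfl⟩
      rw [← mul_assoc, e, mul_assoc g, mul_inv_eq_iff_eq_mul, mul_assoc g, mul_assoc _ b, bt,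
        ← mul_assoc t⁻¹, zc, ← mul_assoc z, ← zc g]
      group)
    (by
      rw [_root_.commutator_def, ← map_top_of_surjective π (QuotientGroup.mk'_surjective _),
        ← map_commutator]
      exact ⟨b, hb.2, rfl⟩)
  have e1 : b⁻¹ * (c * (t * c⁻¹ * t⁻¹)) ∈ center G := QuotientGroup.eq.1 e
  generalize hs : b⁻¹ * (c * (t * c⁻¹ * t⁻¹)) = s at e1
  have e2 : t * c⁻¹ * t⁻¹ = c⁻¹ * b * s := by rw [← hs]; group
  have e3 : t * (c⁻¹ * c⁻¹) * t⁻¹ = c⁻¹ * b * s * (c⁻¹ * b * s) := by rw [← e2]; group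
  have ss : s * s = 1 := by rcases hZ s e1 with rfl | rfl <;> simp [zz]
  rw [mem_center_iff.1 (c4 _ (inv_mem hc)) t, mul_inv_cancel_right, mul_assoc _ s,
    ← mem_center_iff.1 e1, mul_assoc _ s, ss, mul_one, mul_assoc, ← mul_assoc b,
    (mC _).1 (inv_mem hc), mul_assoc, b2, ← mul_assoc] at e3
  exact z3 (by simpa using e3)

end Cfsg.Agent.C6
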