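import Cfsg.Agent.C6.Tools

/-! Normalisers of symplectic type `2`-groups: from centralisers to the trivial intersection
property. -/

set_option autoImplicit false
set_option linter.unusedSectionVars false
set_option linter.unusedVariables false
set_option linter.unusedSimpArgs false

namespace Cfsg.Agent.C6

open Module Cfsg.Agent.H27

universe u v

variable {F : Type u} {V : Type v} [Field F] [AddCommGroup V] [Module F V]
variable [Finite F] [FiniteDimensional F V]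
variable {R M : Subgroup (GV F V)} {a b c d g h k r s u w x y z : GV F V}

/-- The centraliser of `a` in `M` normalises the centraliser of `a` in `R` modulo scalars. -/
def CN (R M : Subgroup (GV F V)) (a : GV F V) : Prop :=
  ∀ g ∈ M, ip g a = 0 → ∀ x ∈ R, ip x a = 0 → g * x * g⁻¹ ∈ RS R

/-- An element conjugating `x` into `R` times the scalars normalises it. -/
def TI (R M : Subgroup (GV F V)) (x : GV F V) : Prop :=
  ∀ c ∈ M, c * x * c⁻¹ ∈ RS R → c ∈ Nrm R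

theorem conj_mul (g h x : GV F V) : g * h * x * (g * h)⁻¹ = g * (h * x * h⁻¹) * g⁻¹ := by group

theorem ip_conj_fix (h : ip g a = 0) (x : GV F V) : ip (g * x * g⁻¹) a = ip x a := by
  conv_lhs => rw [← conj_of_ip h]
  exact ip_conj g x a

theorem sp_conj_fix (h : ip g a = 0) : Sp [a] (g * x * g⁻¹) ↔ Sp [a] x := by
  constructor
  · intro h1
    have := h1.conj g⁻¹
    rwa [List.map_singleton, conj_of_ip ((ip_inv_left _ _).trans h),
      show g⁻¹ * (g * x * g⁻¹) * g⁻¹⁻¹ = x by group] at this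
  · intro h1
    have := h1.conj g
    rwa [List.map_singleton, conj_of_ip h] at this

namespace CM

variable (P : CM R M)
include P

theorem nrm_of_two (ha : a ∈ R) (hz : z ∈ R) (h1 : ¬ Sp [a] z) (ca : CN R M a)
    (cz : CN R M z) (hg : g ∈ M) (h2 : ip g a = 0) (h3 : ip g z = 0) (h4 : a ∉ Sc F V)
    (h5 : ip a z = 0) : g ∈ Nrm R := by
  obtain ⟨u, hu, u1, u2⟩ := P.exists_sep (l := [z]) (by simpa using le_RS hz) (le_RS ha) (by
    rintro (e | e)
    · exact h4 e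
    · exact h1 (Or.inr (by rwa [ip_eq_zero.1 h5])))
  refine mem_Nrm fun x hx => ?_
  rcases ip_cases x a with e | e
  · exact ca g hg h2 x hx e
  · have := (RS R).mul_mem (ca g hg h2 (x * u) (R.mul_mem hx hu) (by
      rw [P.ip_mul_left (le_RS hx) (le_RS hu) (le_RS ha), e, u2]; rfl))
      ((RS R).inv_mem (cz g hg h3 u hu (u1 z (by simp))))
    rwa [show g * (x * u) * g⁻¹ * (g * u * g⁻¹)⁻¹ = g * x * g⁻¹ by group] at this

theorem move_perp (ha : NN R a) (hx : NN R x) (hy : NN R y) (h1 : ip x a = 0) (h2 : ip y a = 0)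
    (h3 : ip x y = 1) : ∃ k ∈ M ⊓ Nrm R, ip k a = 0 ∧ k * x * k⁻¹ = y := by
  have h4 : ip (y * x) x = 1 := by
    rw [P.ip_mul_left hy.RS hx.RS hx.RS, ip_self, ip_comm, h3, add_zero]
  have hd : NN R (y * x) := ⟨R.mul_mem hy.1 hx.1, by
    rw [P.sq_mul_anti hy.RS hx.RS ((ip_comm _ _).trans h3), hx.2.1, hy.2.1]; simp, not_Sc_of_ip h4⟩
  refine ⟨T (-(y * x)) * T a, P.tt_Nrm (hd.neg P.toPa) ha, ip_mul_zero (ip_T P.two (hd.neg P.toPa).2.1
    ((ip_neg_left _ _).trans (ip_mul_zero h2 h1))) (ip_T P.two ha.2.1 (ip_self a)), ?_⟩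
  rw [conj_mul, T_conj_comm P.two ha.2.1 ((ip_comm _ _).trans h1), P.T_conj_one
    (hd.neg P.toPa).RS (hd.neg P.toPa).2.1 hx.RS ((ip_neg_left _ _).trans h4), neg_mul, mul_assoc,
    hx.2.1]
  simp

theorem nrm_of_cn (hB : Bk R M) (hn : 4 < finrank F V ^ 2) (h : ∀ a, NN R a → CN R M a)
    (ha : NN R a) (hg : g ∈ M) (h1 : ip g a = 0) : g ∈ Nrm R := by
  have hl : ∀ b ∈ [a], b ∈ RS R := by simpa using ha.RS
  obtain ⟨z, hz, z1, z2⟩ := P.exists_NN' hl (by simpa using hn)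
  have z3 : ip z a = 0 := z1 a (by simp)
  have hz' := hz.conj hB hg (h a ha g hg h1 z hz.1 z3)
  have z4 := (ip_conj_fix h1 z).trans z3
  obtain ⟨u0, hu0, u1, u2, u3⟩ := P.exists_anti2 hl hz.RS hz'.RS z2 (mt (sp_conj_fix h1).1 z2)
  have u4 : ip u0 a = 0 := u1 a (by simp)
  obtain ⟨u, hu, u5, u6⟩ := P.adj hu0 ha.1 ha.2.1 u4 (Or.inr rfl)
  have k : ∀ t ∈ RS R, ip t a = 0 → ip u0 t = 1 → ip u t = 1 := fun t ht e1 e2 => by
    rcases u6 with rfl | rfl
    · exact e2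
    · rw [P.ip_mul_left (le_RS hu0) ha.RS ht, e2, ip_comm, e1, add_zero]
  have u7 : ip u a = 0 := by
    rcases u6 with rfl | rfl
    exacts [u4, ip_mul_zero u4 (ip_self a)]
  have u8 := k z hz.RS z3 u2
  have hu' : NN R u := ⟨hu, u5, not_Sc_of_ip u8⟩
  obtain ⟨k1, a1, a2, a3⟩ := P.move_perp ha hz' hu' z4 u7 ((ip_comm _ _).trans (k _ hz'.RS z4 u3))
  obtain ⟨k2, b1, b2, b3⟩ := P.move_perp ha hu' hz u7 z3 u8
  have := P.nrm_of_two ha.1 hz.1 z2 (h a ha) (h z hz) (g := k2 * k1 * g)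
    (M.mul_mem (M.mul_mem b1.1 a1.1) hg) (ip_mul_zero (ip_mul_zero b2 a2) h1)
    (ip_of_conj (by rw [conj_mul, conj_mul, a3, b3])) ha.2.2 ((ip_comm _ _).trans z3)
  simpa only [inv_mul_cancel_left] using (Nrm R).mul_mem ((Nrm R).inv_mem ((Nrm R).mul_mem b1.2 a1.2)) this

theorem ti_of_cent (hB : Bk R M) (hR : Rich R) (hn : 4 < finrank F V ^ 2) (hx : x ∈ R)
    (hx' : x ∉ Sc F V) (h : ∀ g ∈ M, ip g x = 0 → g ∈ Nrm R) : TI R M x := fun c hc h1 => by
  obtain ⟨k, hk, e⟩ := P.trans hR hn (hB c hc x hx h1) hx (by rwa [conj_mem_Sc]) hx' (by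
    rw [conj_sq, Sc_conj (P.sqS (le_RS hx))])
  have := h (k * c) (M.mul_mem hk.1 hc) (ip_of_conj (by rw [conj_mul, e]))
  simpa using (Nrm R).mul_mem ((Nrm R).inv_mem hk.2) this

theorem ti_of_cn (hB : Bk R M) (hR : Rich R) (hn : 4 < finrank F V ^ 2)
    (h : ∀ a, NN R a → CN R M a) (ha : NN R a) : TI R M a :=
  P.ti_of_cent hB hR hn ha.1 ha.2.2 fun g hg h1 => P.nrm_of_cn hB hn h ha hg h1

end CM

theorem TI.smul (h : TI R M x) (hs : s ∈ Sc F V) : TI R M (s * x) := fun c hc h1 => by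
  refine h c hc ?_
  have := (RS R).mul_mem ((RS R).inv_mem (Sc_le_RS hs)) h1
  rwa [show c * (s * x) * c⁻¹ = c * s * c⁻¹ * (c * x * c⁻¹) by group, Sc_conj hs,
    inv_mul_cancel_left] at this

end Cfsg.Agent.C6
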