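import Cfsg.Agent.C6.Basic2

/-! Normalisers of symplectic type `2`-groups: restriction to the fixed space of an involution. -/

set_option autoImplicit false
set_option linter.unusedSectionVars false
set_option linter.unusedVariables false
set_option linter.unusedSimpArgs false

namespace Cfsg.Agent.C6

open Module Cfsg.Agent.H27

universe u v

variable {F : Type u} {V : Type v} [Field F] [AddCommGroup V] [Module F V]
variable {R M X : Subgroup (GV F V)} {a b c d g h k r s u w x y z : GV F V} {l : List (GV F V)}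
variable {W : Submodule F V}

theorem mul_ap (g h : GV F V) (v : V) : (g * h).1 v = g.1 (h.1 v) := rfl

theorem neg_ap (g : GV F V) (v : V) : (-g).1 v = -g.1 v := rfl

theorem one_ap (v : V) : (1 : GV F V).1 v = v := rfl

theorem sc_ap (c : F) (hc : c ≠ 0) (v : V) : (sc V c hc).1 v = c • v := rfl

theorem GV_ext (h' : ∀ v, g.1 v = h.1 v) : g = h := Units.ext (LinearMap.ext h')

theorem ap_inj (g : GV F V) {v v' : V} (h : g.1 v = g.1 v') : v = v' := by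
  rw [← val_inv_apply g v, h, val_inv_apply]

theorem ap_ne (g : GV F V) {v : V} (h : v ≠ 0) : g.1 v ≠ 0 := fun e =>
  h (ap_inj g (by rw [e, map_zero]))

theorem inv_ap {v v' : V} (h : g.1 v = v') : (g⁻¹).1 v' = v := by rw [← h, val_inv_apply]

theorem Sc_ap (hs : s ∈ Sc F V) : ∃ c : F, c ≠ 0 ∧ ∀ v, s.1 v = c • v :=
  hs.imp fun c h => ⟨h.1, fun v => by rw [h.2]; rfl⟩

theorem mem_Sc_ap {c : F} (hc : c ≠ 0) (h : ∀ v, s.1 v = c • v) : s ∈ Sc F V :=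
  ⟨c, hc, LinearMap.ext h⟩

theorem ip_ap (h : ip g w = 0) (v : V) : g.1 (w.1 v) = w.1 (g.1 v) := by
  rw [← mul_ap, ip_eq_zero.1 h, mul_ap]

theorem T_ap (h2 : (2 : F) ≠ 0) (ha : a * a = -1) (v : V) : (T a).1 v = v + a.1 v := by
  rw [T_val h2 ha]; rfl

theorem sq_ap (ha : a * a = -1) (v : V) : a.1 (a.1 v) = -v := by rw [← mul_ap, ha]; rfl

theorem sq_ap' (ha : a * a = 1) (v : V) : a.1 (a.1 v) = v := by rw [← mul_ap, ha]; rfl

theorem mem_Vp {v : V} : v ∈ Vp w ↔ w.1 v = v := by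
  rw [Vp, LinearMap.mem_ker, LinearMap.sub_apply, sub_eq_zero]; rfl

theorem mem_Vp_neg {v : V} : v ∈ Vp (-w) ↔ w.1 v = -v := by
  rw [mem_Vp, neg_ap, neg_eq_iff_eq_neg]

theorem Vp_map (h : ip g w = 0) {v : V} (hv : v ∈ Vp w) : g.1 v ∈ Vp w := by
  rw [mem_Vp, ← ip_ap h, mem_Vp.1 hv]

theorem Vp_map_neg (h : ip g w = 0) {v : V} (hv : v ∈ Vp (-w)) : g.1 v ∈ Vp (-w) :=
  Vp_map ((ip_neg_right _ _).trans h) hv

theorem Vp_anti (h : g * w = -(w * g)) {v : V} (hv : v ∈ Vp w) : g.1 v ∈ Vp (-w) := by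
  rw [mem_Vp, ← mul_ap, neg_mul, ← h, mul_ap, mem_Vp.1 hv]

theorem Vp_anti' (h : g * w = -(w * g)) {v : V} (hv : v ∈ Vp (-w)) : g.1 v ∈ Vp w := by
  simpa using Vp_anti (w := -w) (by simp [h]) hv

theorem half_mem (hw : w * w = 1) (v : V) : (2 : F)⁻¹ • (v + w.1 v) ∈ Vp w :=
  Submodule.smul_mem _ _ (by rw [mem_Vp, map_add, sq_ap' hw, add_comm])

theorem Vp_dec (h2 : (2 : F) ≠ 0) (hw : w * w = 1) (v : V) :
    ∃ p ∈ Vp w, ∃ q ∈ Vp (-w), v = p + q :=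
  ⟨_, half_mem hw v, _, half_mem (w := -w) (by simpa using hw) v, by
    rw [neg_ap]; match_scalars <;> field_simp <;> ring⟩

theorem Vp_disj (h2 : (2 : F) ≠ 0) {v : V} (h1 : v ∈ Vp w) (h3 : v ∈ Vp (-w)) : v = 0 := by
  have : (2 : F) • v = 0 := by
    rw [two_smul]; nth_rw 1 [← mem_Vp.1 h1, mem_Vp_neg.1 h3]; simp
  exact (smul_eq_zero.1 this).resolve_left h2

theorem Vp_ext (h2 : (2 : F) ≠ 0) (hw : w * w = 1) (h1 : ∀ v ∈ Vp w, g.1 v = h.1 v)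
    (h3 : ∀ v ∈ Vp (-w), g.1 v = h.1 v) : g = h := GV_ext fun v => by
  obtain ⟨p, hp, q, hq, rfl⟩ := Vp_dec h2 hw v
  rw [map_add, map_add, h1 p hp, h3 q hq]

theorem ip_of_maps (h2 : (2 : F) ≠ 0) (hw : w * w = 1) (h1 : ∀ v ∈ Vp w, g.1 v ∈ Vp w)
    (h3 : ∀ v ∈ Vp (-w), g.1 v ∈ Vp (-w)) : ip g w = 0 :=
  ip_eq_zero.2 (Vp_ext h2 hw (fun v hv => by rw [mul_ap, mul_ap, mem_Vp.1 hv, mem_Vp.1 (h1 v hv)])
    fun v hv => by rw [mul_ap, mul_ap, mem_Vp_neg.1 hv, mem_Vp_neg.1 (h3 v hv), map_neg])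

theorem Vp_ne (h2 : (2 : F) ≠ 0) (hw : w * w = 1) (hw' : w ∉ Sc F V) : ∃ v ∈ Vp w, v ≠ 0 := by
  by_contra hc
  push Not at hc
  refine hw' (mem_Sc_ap (c := -1) (by simp) fun v => ?_)
  obtain ⟨p, hp, q, hq, rfl⟩ := Vp_dec h2 hw v
  rw [hc p hp, zero_add, mem_Vp_neg.1 hq, neg_one_smul]

theorem finrank_half [FiniteDimensional F V] (h2 : (2 : F) ≠ 0) (hw : w * w = 1)
    (hx : x * w = -(w * x)) {U : Submodule F V} (h1 : ∀ v ∈ U, w.1 v ∈ U)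
    (h3 : ∀ v ∈ U, x.1 v ∈ U) : 2 * finrank F (U ⊓ Vp w : Submodule F V) = finrank F U := by
  have k : ∀ {w : GV F V}, x * w = -(w * x) → finrank F (U ⊓ Vp w : Submodule F V) ≤
      finrank F (U ⊓ Vp (-w) : Submodule F V) := fun {w} hx =>
    LinearMap.finrank_le_finrank_of_injective (f := x.1.restrict (p := U ⊓ Vp w)
      (q := U ⊓ Vp (-w)) fun v hv => ⟨h3 v hv.1, Vp_anti hx hv.2⟩)
      fun v v' e => Subtype.ext (ap_inj x (congrArg Subtype.val e))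
  have k1 := k hx
  have k2 := k (w := -w) (by simp [hx])
  rw [neg_neg] at k2
  have k3 := Submodule.finrank_sup_add_finrank_inf_eq (U ⊓ Vp w) (U ⊓ Vp (-w))
  rw [show U ⊓ Vp w ⊔ U ⊓ Vp (-w) = U from le_antisymm (sup_le inf_le_left inf_le_left)
      fun v hv => Submodule.mem_sup.2 ⟨_, ⟨U.smul_mem _ (U.add_mem hv (h1 v hv)), half_mem hw v⟩,
        _, ⟨U.smul_mem _ (U.add_mem hv (U.neg_mem (h1 v hv))),
          half_mem (w := -w) (by simpa using hw) v⟩, by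
        match_scalars <;> field_simp <;> ring⟩,
    show U ⊓ Vp w ⊓ (U ⊓ Vp (-w)) = ⊥ from eq_bot_iff.2 fun v hv => Vp_disj h2 hv.1.2 hv.2.2,
    finrank_bot] at k3
  omega

theorem On.ap {h : GV F W} (a : On W g h) {v : V} (hv : v ∈ W) : (h.1 ⟨v, hv⟩ : V) = g.1 v := a _

theorem On.maps {h : GV F W} (a : On W g h) {v : V} (hv : v ∈ W) : g.1 v ∈ W :=
  a.ap hv ▸ (h.1 ⟨v, hv⟩).2

theorem On.unique {h h' : GV F W} (a : On W g h) (b : On W g h') : h = h' :=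
  GV_ext fun v => Subtype.ext ((a v).trans (b v).symm)

theorem On.congr {g' : GV F V} {h : GV F W} (a : On W g h) (e : ∀ v ∈ W, g.1 v = g'.1 v) :
    On W g' h := fun v => (a v).trans (e v v.2)

theorem On.eq {g' : GV F V} {h : GV F W} (a : On W g h) (b : On W g' h) {v : V} (hv : v ∈ W) :
    g.1 v = g'.1 v := (a.ap hv).symm.trans (b.ap hv)

theorem On.neg {h : GV F W} (a : On W g h) : On W (-g) (-h) := fun v => by
  rw [neg_ap, neg_ap, Submodule.coe_neg, a]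

theorem On.pow {h : GV F W} (a : On W g h) (n : ℕ) : On W (g ^ n) (h ^ n) := by
  induction n with
  | zero => simpa using On.one
  | succ n ih => simpa [pow_succ] using ih.mul a

theorem On.conj {h x' : GV F W} (a : On W g h) (b : On W x x') :
    On W (g * x * g⁻¹) (h * x' * h⁻¹) := (a.mul b).mul a.inv

theorem on_sc (c : F) (hc : c ≠ 0) : On W (sc V c hc) (sc W c hc) := fun _ => rfl

theorem ex_on (h1 : ∀ v ∈ W, g.1 v ∈ W) (h2 : ∀ v ∈ W, (g⁻¹).1 v ∈ W) : ∃ h, On W g h :=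
  ⟨⟨g.1.restrict h1, (g⁻¹).1.restrict h2, LinearMap.ext fun v => Subtype.ext (val_apply_inv g v),
    LinearMap.ext fun v => Subtype.ext (val_inv_apply g v)⟩, fun _ => rfl⟩

theorem ex_on_Vp (h : ip g w = 0) : ∃ h, On (Vp w) g h :=
  ex_on (fun _ => Vp_map h) fun _ => Vp_map ((ip_inv_left _ _).trans h)

theorem mem_ScOn : g ∈ ScOn W ↔ ∃ c : F, c ≠ 0 ∧ ∀ x ∈ W, g.1 x = c • x := Iff.rfl

theorem Sc_le_ScOn (hs : s ∈ Sc F V) : s ∈ ScOn W := (Sc_ap hs).imp fun _ h => ⟨h.1, fun v _ => h.2 v⟩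

theorem On.mem_Sc {h : GV F W} (a : On W g h) : h ∈ Sc F W ↔ g ∈ ScOn W :=
  ⟨fun e => (Sc_ap e).imp fun c e => ⟨e.1, fun v hv => by rw [← a.ap hv, e.2]; rfl⟩,
    fun ⟨c, hc, e⟩ => mem_Sc_ap hc fun v => Subtype.ext ((a v).trans (e v v.2))⟩

theorem ex_lift_Sc {t : GV F W} (ht : t ∈ Sc F W) : ∃ s ∈ Sc F V, On W s t := by
  obtain ⟨c, hc, e⟩ := ht
  exact ⟨_, sc_mem c hc, by rw [show t = sc W c hc from Units.ext e]; exact on_sc c hc⟩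

theorem On.sq {h : GV F W} (a : On W g h) (e : g * g = -1) : h * h = -1 :=
  (a.mul a).unique (e ▸ On.one.neg)

theorem On.sq' {h : GV F W} (a : On W g h) (e : g * g = 1) : h * h = 1 :=
  (a.mul a).unique (e ▸ On.one)

theorem On.T (h2 : (2 : F) ≠ 0) {a' : GV F W} (o : On W a a') (ha : a * a = -1) :
    On W (T a) (T a') := fun v => by
  rw [T_ap h2 ha, T_ap h2 (o.sq ha), Submodule.coe_add, o]

theorem On.ip {h x' : GV F W} (a : On W g h) (b : On W x x') (e : ip g x = 0) : ip h x' = 0 :=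
  ip_eq_zero.2 ((a.mul b).unique (ip_eq_zero.1 e ▸ b.mul a))

theorem mem_rsW {h : GV F W} : h ∈ rsW W X ↔ ∃ g ∈ X, On W g h := Iff.rfl

theorem mem_rs {h : GV F (Vp w)} : h ∈ rs w X ↔ ∃ g ∈ X, ip g w = 0 ∧ On (Vp w) g h := by
  simp only [rs, mem_rsW, Subgroup.mem_inf, Subgroup.mem_centralizer_singleton_iff, ip_eq_zero,
    and_assoc]

theorem mem_kr {h : GV F (Vp w)} :
    h ∈ kr w X ↔ ∃ g ∈ X, g ∈ ScOn (Vp (-w)) ∧ ip g w = 0 ∧ On (Vp w) g h := by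
  simp only [kr, mem_rs, Subgroup.mem_inf, and_assoc]

theorem kr_le : kr w X ≤ rs w X := fun h hh =>
  let ⟨g, h1, _, h2⟩ := mem_kr.1 hh; mem_rs.2 ⟨g, h1, h2⟩

theorem ScOn_conj (hg : ∀ v ∈ W, (g⁻¹).1 v ∈ W) (hs : s ∈ ScOn W) : g * s * g⁻¹ ∈ ScOn W :=
  hs.imp fun c e => ⟨e.1, fun v hv => by
    rw [mul_ap, mul_ap, e.2 _ (hg v hv), map_smul, val_apply_inv]⟩

theorem kr_conj {h k : GV F (Vp w)} (hh : h ∈ rs w X) (hk : k ∈ kr w X) :
    h * k * h⁻¹ ∈ kr w X := by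
  obtain ⟨g, h1, h2, h3⟩ := mem_rs.1 hh
  obtain ⟨g', h4, h5, h6, h7⟩ := mem_kr.1 hk
  exact mem_kr.2 ⟨_, X.mul_mem (X.mul_mem h1 h4) (X.inv_mem h1),
    ScOn_conj (fun _ => Vp_map_neg ((ip_inv_left _ _).trans h2)) h5,
    ip_mul_zero (ip_mul_zero h2 h6) ((ip_inv_left _ _).trans h2), h3.conj h7⟩

theorem Sc_le_kr (hX : Sc F V ≤ X) : Sc F (Vp w) ≤ kr w X := fun t ht =>
  let ⟨s, hs, o⟩ := ex_lift_Sc ht
  mem_kr.2 ⟨s, hX hs, Sc_le_ScOn hs, ip_sc_left hs w, o⟩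

theorem mem_RS_rs {h : GV F (Vp w)} :
    h ∈ RS (rs w R) ↔ ∃ g ∈ RS R, ip g w = 0 ∧ On (Vp w) g h := by
  constructor
  · intro hh
    obtain ⟨t, ht, r, hr, rfl⟩ := mem_RS.1 hh
    obtain ⟨s, hs, o⟩ := ex_lift_Sc ht
    obtain ⟨g, h1, h2, h3⟩ := mem_rs.1 hr
    exact ⟨s * g, mem_RS.2 ⟨s, hs, g, h1, rfl⟩, (ip_smul_left hs _ _).trans h2, o.mul h3⟩
  · rintro ⟨g, hg, h1, h2⟩
    obtain ⟨s, hs, r, hr, rfl⟩ := mem_RS.1 hg
    rw [ip_smul_left hs] at h1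
    obtain ⟨t, o⟩ := ex_on_Vp (ip_sc_left hs w)
    obtain ⟨r', o'⟩ := ex_on_Vp h1
    exact mem_RS.2 ⟨t, o.mem_Sc.2 (Sc_le_ScOn hs), r', mem_rs.2 ⟨r, hr, h1, o'⟩,
      h2.unique (o.mul o')⟩

theorem w_ScOn (w : GV F V) : w ∈ ScOn (Vp w) :=
  ⟨1, one_ne_zero, fun v hv => by rw [mem_Vp.1 hv, one_smul]⟩

theorem w_ScOn' (w : GV F V) : w ∈ ScOn (Vp (-w)) :=
  ⟨-1, by simp, fun v hv => by rw [mem_Vp_neg.1 hv, neg_one_smul]⟩

theorem Sp.scOn (h : Sp [w] y) : y ∈ ScOn (Vp w) :=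
  h.mem (fun _ => Sc_le_ScOn) (by simpa using w_ScOn w)

theorem Sp.scOn' (h : Sp [w] y) : y ∈ ScOn (Vp (-w)) :=
  h.mem (fun _ => Sc_le_ScOn) (by simpa using w_ScOn' w)

theorem sp_neg_one : Sp [-w] y ↔ Sp [w] y := by simp [Sp, neg_mem_Sc]

variable [Finite F] [FiniteDimensional F V]

/-- A non-scalar involution in `R` times the scalars. -/
structure Iv (R : Subgroup (GV F V)) (w : GV F V) : Prop where
  mem : w ∈ RS R
  sq : w * w = 1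
  ns : w ∉ Sc F V

theorem Iv.neg (I : Iv R w) : Iv R (-w) :=
  ⟨neg_mem_RS I.mem, by simpa using I.sq, by simpa [neg_mem_Sc] using I.ns⟩

namespace Pa

variable (P : Pa R)
include P

theorem sp_of_scOn (hl : ∀ a ∈ l, a ∈ RS R) (hy : y ∈ RS R) {v : V} (hv : v ∈ W) (hv0 : v ≠ 0)
    (hW : ∀ r ∈ R, (∀ a ∈ l, ip r a = 0) → r.1 v ∈ W) (h : y ∈ ScOn W) : Sp l y :=
  P.sep hl hy fun r hr h1 => (ip_cases r y).resolve_right fun e => by
    obtain ⟨c, hc, h2⟩ := h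
    have h3 := congrArg (fun g : GV F V => g.1 v) (P.anti (le_RS hr) hy e)
    simp only [mul_ap, neg_ap, h2 v hv, h2 _ (hW r hr h1), map_smul] at h3
    have h4 : (2 * c) • r.1 v = 0 := by rw [mul_smul, two_smul]; nth_rw 1 [h3]; simp
    exact ap_ne r hv0 ((smul_eq_zero.1 h4).resolve_left (mul_ne_zero P.two hc))

variable (I : Iv R w)
include I

theorem sp_w (hy : y ∈ RS R) (h : y ∈ ScOn (Vp w)) : Sp [w] y := by
  obtain ⟨v, hv, hv0⟩ := Vp_ne P.two I.sq I.ns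
  exact P.sp_of_scOn (by simpa using I.mem) hy hv hv0
    (fun r _ h1 => Vp_map (h1 w (by simp)) hv) h

theorem sp_w' (hy : y ∈ RS R) (h : y ∈ ScOn (Vp (-w))) : Sp [w] y :=
  sp_neg_one.1 (P.sp_w I.neg hy h)

theorem on_mem_Sc {h : GV F (Vp w)} (hy : y ∈ RS R) (o : On (Vp w) y h) :
    h ∈ Sc F (Vp w) ↔ Sp [w] y := by
  rw [o.mem_Sc]; exact ⟨P.sp_w I hy, Sp.scOn⟩

theorem finrank_Vp : 2 * finrank F (Vp w) = finrank F V := by
  obtain ⟨x, hx, h⟩ := P.exists_anti I.ns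
  have := finrank_half P.two I.sq (P.anti (le_RS hx) I.mem h) (U := ⊤) (by simp) (by simp)
  rwa [top_inf_eq, finrank_top] at this

theorem nt_Vp : Nontrivial (Vp w) := by
  obtain ⟨v, hv, hv0⟩ := Vp_ne P.two I.sq I.ns
  exact ⟨⟨⟨v, hv⟩, 0, fun e => hv0 (congrArg Subtype.val e)⟩⟩

theorem rs_pa : Pa (rs w R) where
  two := P.two
  nt := P.nt_Vp I
  neg := mem_rs.2 ⟨-1, P.neg, ip_sc_left neg_one_mem_Sc w, On.one.neg⟩
  comm x hx y hy := by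
    obtain ⟨g, h1, -, h2⟩ := mem_rs.1 hx
    obtain ⟨g', h3, -, h4⟩ := mem_rs.1 hy
    exact (P.comm g h1 g' h3).imp (fun e => (h2.mul h4).unique (by rw [e]; exact h4.mul h2))
      fun e => (h2.mul h4).unique (by rw [e]; exact (h4.mul h2).neg)
  sq x hx := by
    obtain ⟨g, h1, -, h2⟩ := mem_rs.1 hx
    exact (P.sq g h1).imp h2.sq' h2.sq
  span := by
    let π : V →ₗ[F] Vp w := LinearMap.codRestrict (Vp w) ((2 : F)⁻¹ • (1 + w.1)) (half_mem I.sq)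
    have h1 : ∀ v : Vp w, π v = v := fun v => Subtype.ext (by
      change (2 : F)⁻¹ • ((v : V) + w.1 v) = v
      rw [mem_Vp.1 v.2, ← two_smul F, smul_smul, inv_mul_cancel₀ P.two, one_smul])
    have h2 : ∀ v ∈ Vp (-w), π v = 0 := fun v hv => Subtype.ext (by
      change (2 : F)⁻¹ • (v + w.1 v) = 0
      rw [mem_Vp_neg.1 hv, add_neg_cancel, smul_zero])
    refine eq_top_iff.2 fun f _ => ?_
    have := P.span_ind (p := fun φ => π ∘ₗ φ ∘ₗ (Vp w).subtype ∈ Submodule.span F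
      ((fun x : GV F (Vp w) => x.1) '' (rs w R : Set (GV F (Vp w))))) (fun x hx => ?_)
      (by simp) (fun f g a b => by
        simpa only [LinearMap.add_comp, LinearMap.comp_add] using Submodule.add_mem _ a b)
      (fun c f a => by
        simpa only [LinearMap.smul_comp, LinearMap.comp_smul] using Submodule.smul_mem _ c a)
      ((Vp w).subtype ∘ₗ f ∘ₗ π)
    · rwa [show π ∘ₗ ((Vp w).subtype ∘ₗ f ∘ₗ π) ∘ₗ (Vp w).subtype = f from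
        LinearMap.ext fun v => by simp [h1]] at this
    rcases ip_cases x w with e | e
    · obtain ⟨x', o⟩ := ex_on_Vp e
      exact Submodule.subset_span ⟨x', mem_rs.2 ⟨x, hx, e, o⟩, LinearMap.ext fun v => by
        simp [← o v, h1]⟩
    · rw [show π ∘ₗ x.1 ∘ₗ (Vp w).subtype = 0 from LinearMap.ext fun v =>
        h2 _ (Vp_anti (P.anti (le_RS hx) I.mem e) v.2)]
      exact Submodule.zero_mem _

theorem on_ip {x' y' : GV F (Vp w)} (hx : x ∈ RS R) (hy : y ∈ RS R) (a : On (Vp w) x x')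
    (b : On (Vp w) y y') : ip x' y' = ip x y := by
  rcases ip_cases x y with e | e
  · rw [e, a.ip b e]
  · rw [e]
    exact (P.rs_pa I).ip_of_anti ((a.mul b).unique (P.anti hx hy e ▸ (b.mul a).neg))

theorem nn_lift {a' : GV F (Vp w)} (h : NN (rs w R) a') :
    ∃ a, NN R a ∧ ip a w = 0 ∧ ¬ Sp [w] a ∧ On (Vp w) a a' := by
  obtain ⟨a, h1, h2, h3⟩ := mem_rs.1 h.1
  have h4 : ¬ Sp [w] a := fun e => h.2.2 ((P.on_mem_Sc I (le_RS h1) h3).2 e)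
  refine ⟨a, ⟨h1, (P.sq a h1).resolve_left fun e => ?_, fun e => h4 (sp_of_Sc e)⟩, h2, h4, h3⟩
  exact (P.rs_pa I).ne_neg 1 ((h3.sq' e).symm.trans h.2.1)

theorem nn_res (ha : NN R a) (h1 : ip a w = 0) (h2 : ¬ Sp [w] a) {a' : GV F (Vp w)}
    (o : On (Vp w) a a') : NN (rs w R) a' :=
  ⟨mem_rs.2 ⟨a, ha.1, h1, o⟩, o.sq ha.2.1, fun e => h2 ((P.on_mem_Sc I ha.RS o).1 e)⟩

theorem hasI_rs (hu : u ∈ R) (h1 : u * u = -1) (h2 : Sp [w] u) : HasI (rs w R) := by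
  have h3 : ip u w = 0 := (ip_comm _ _).trans (h2.ip (by simp [ip_self]))
  obtain ⟨u', o⟩ := ex_on_Vp h3
  exact ⟨u', mem_rs.2 ⟨u, hu, h3, o⟩, o.mem_Sc.2 h2.scOn, o.sq h1⟩

end Pa

theorem T_scOn (h2 : (2 : F) ≠ 0) (hu : u * u = -1) (h : u ∈ ScOn W) : T u ∈ ScOn W := by
  obtain ⟨c, hc, e⟩ := h
  by_cases h1 : ∀ v ∈ W, v = 0
  · exact ⟨1, one_ne_zero, fun v hv => by rw [h1 v hv]; simp⟩
  push Not at h1
  obtain ⟨v, hv, hv0⟩ := h1
  have k : ∀ v ∈ W, (T u).1 v = (1 + c) • v := fun v hv => by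
    rw [T_ap h2 hu, e v hv, add_smul, one_smul]
  exact ⟨1 + c, fun h0 => ap_ne (T u) hv0 (by rw [k v hv, h0, zero_smul]), k⟩

namespace CM

variable (P : CM R M) (I : Iv R w)
include P I

theorem rs_cm : CM (rs w R) (rs w M) where
  toPa := P.rs_pa I
  sc := (Sc_le_kr P.sc).trans kr_le
  le x hx := let ⟨g, h1, h2⟩ := mem_rs.1 hx; mem_rs.2 ⟨g, P.le h1, h2⟩
  tt a' c' ha hc := by
    obtain ⟨a, a1, a2, -, a3⟩ := P.nn_lift I ha
    obtain ⟨c, c1, c2, -, c3⟩ := P.nn_lift I hc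
    exact mem_rs.2 ⟨_, P.tt a c a1 c1, ip_mul_zero (ip_T P.two a1.2.1 a2) (ip_T P.two c1.2.1 c2),
      (a3.T P.two a1.2.1).mul (c3.T P.two c1.2.1)⟩

theorem rs_odd (hu : NN R u) (h2 : Sp [w] u) : OddM (rs w R) (rs w M) := fun a' ha => by
  obtain ⟨a, a1, a2, -, a3⟩ := P.nn_lift I ha
  have h3 : ip u w = 0 := (ip_comm _ _).trans (h2.ip (by simp [ip_self]))
  obtain ⟨t, o⟩ := ex_on_Vp (ip_T P.two hu.2.1 h3)
  simpa using (rs w M).mul_mem (mem_rs.2 ⟨_, P.tt a u a1 hu,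
    ip_mul_zero (ip_T P.two a1.2.1 a2) (ip_T P.two hu.2.1 h3), (a3.T P.two a1.2.1).mul o⟩)
    ((rs w M).inv_mem ((P.rs_cm I).sc (o.mem_Sc.2 (T_scOn P.two hu.2.1 h2.scOn))))

theorem ctrl_nn (hw : w ∈ R) (ha : NN R a) (h1 : ip a w = 0) (h2 : ¬ Sp [w] a) :
    ∃ k ∈ M, (∀ v ∈ Vp w, k.1 v = a.1 v) ∧ ∀ v ∈ Vp (-w), k.1 v = v := by
  have hc : NN R (-(a * w)) := NN.neg P.toPa ⟨R.mul_mem ha.1 hw, by
    rw [P.sq_mul_comm h1, ha.2.1, I.sq, mul_one], fun e => h2 (Or.inr (by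
      rwa [← ip_eq_zero.1 h1]))⟩
  refine ⟨_, P.tt_inv ha hc, fun v hv => ?_, fun v hv => ?_⟩
  · rw [mul_ap, inv_ap (g := T (-(a * w))) (v := (2 : F)⁻¹ • (v + a.1 v)), T_ap P.two ha.2.1]
    · simp only [map_smul, map_add, sq_ap ha.2.1]
      have := P.two
      match_scalars <;> field_simp <;> ring
    · simp only [T_ap P.two hc.2.1, neg_ap, mul_ap, map_smul, map_add, mem_Vp.1 hv,
        mem_Vp.1 (Vp_map h1 hv), sq_ap ha.2.1]
      have := P.two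
      match_scalars <;> field_simp <;> ring
  · rw [mul_ap, ← val_apply_inv (T (-(a * w))) v, val_inv_apply]
    have : ((T (-(a * w)))⁻¹).1 v ∈ Vp (-w) := Vp_map_neg ((ip_inv_left _ _).trans
      (ip_T P.two hc.2.1 ((ip_neg_left _ _).trans (ip_mul_zero h1 (ip_self w))))) hv
    generalize ((T (-(a * w)))⁻¹).1 v = p at this
    rw [T_ap P.two ha.2.1, T_ap P.two hc.2.1, neg_ap, mul_ap, mem_Vp_neg.1 this, map_neg, neg_neg]

/-- Controlled elements of `R`. -/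
theorem ctrl (hn : 16 < finrank F V ^ 2) (hw : w ∈ R) (hr : r ∈ R) (h1 : ip r w = 0)
    (h2 : r * r = 1 ∨ ¬ Sp [w] r) :
    ∃ k ∈ M, (∀ v ∈ Vp w, k.1 v = r.1 v) ∧ ∀ v ∈ Vp (-w), k.1 v = v := by
  have nt := P.nt
  by_cases h3 : Sp [w] r
  · have h4 := h2.resolve_right (not_not.2 h3)
    rcases h3 with h3 | h3
    · rcases Sc_sq h3 h4 with rfl | rfl
      · exact ⟨1, M.one_mem, fun _ _ => rfl, fun _ _ => rfl⟩
      · exact ⟨-w, P.le (P.neg_mem hw), fun v hv => by rw [neg_ap, mem_Vp.1 hv]; rfl,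
          fun v => mem_Vp.1⟩
    · rcases P.eq_or_neg I.mem (I.sq.trans h4.symm) h3 with rfl | rfl
      · exact ⟨1, M.one_mem, fun v hv => (mem_Vp.1 hv).symm, fun _ _ => rfl⟩
      · exact ⟨-w, P.le hr, fun _ _ => rfl, fun v => mem_Vp.1⟩
  rcases P.sq r hr with h4 | h4
  swap
  · exact P.ctrl_nn I hw ⟨hr, h4, fun e => h3 (sp_of_Sc e)⟩ h1 h3
  have hl : ∀ a ∈ [r, w], a ∈ RS R := by simp [le_RS, *]
  obtain ⟨a, ha, h5, h6⟩ := P.exists_NN' hl (by simpa using hn)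
  have h7 : ip r a = 0 := (ip_comm _ _).trans (h5 r (by simp))
  have h8 : ip a w = 0 := h5 w (by simp)
  have h9 : ¬ Sp [w] (r * a) := fun e => h6 (Or.inr e)
  obtain ⟨k, hk, a1, a2⟩ := P.ctrl_nn I hw (a := r * a) ⟨R.mul_mem hr ha.1, by
    rw [P.sq_mul_comm h7, h4, ha.2.1, one_mul], fun e => h9 (sp_of_Sc e)⟩ (ip_mul_zero h1 h8) h9
  obtain ⟨k', hk', b1, b2⟩ := P.ctrl_nn I hw (ha.neg P.toPa) ((ip_neg_left _ _).trans h8)
    fun e => h6 (Or.inl (sp_neg.1 e))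
  exact ⟨k * k', M.mul_mem hk hk', fun v hv => by
    rw [mul_ap, b1 v hv, a1 _ (Vp_map ((ip_neg_left _ _).trans h8) hv), mul_ap, neg_ap, map_neg,
      sq_ap ha.2.1, neg_neg], fun v hv => by rw [mul_ap, b2 v hv, a2 v hv]⟩

theorem nn_le_kr (hw : w ∈ R) {a' : GV F (Vp w)} (h : NN (rs w R) a') : a' ∈ kr w M := by
  obtain ⟨a, a1, a2, a3, a4⟩ := P.nn_lift I h
  obtain ⟨k, hk, b1, b2⟩ := P.ctrl_nn I hw a1 a2 a3
  exact mem_kr.2 ⟨k, hk, ⟨1, one_ne_zero, fun v hv => by rw [b2 v hv, one_smul]⟩,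
    ip_of_maps P.two I.sq (fun v hv => b1 v hv ▸ Vp_map a2 hv) (fun v hv => (b2 v hv).symm ▸ hv),
    a4.congr fun v hv => (b1 v hv).symm⟩

theorem RS_le_kr (hn : 16 < finrank F V ^ 2) (hw : w ∈ R) : RS (rs w R) ≤ kr w M := by
  refine sup_le (fun r' h => ?_) (Sc_le_kr P.sc)
  obtain ⟨r, a1, a2, a3⟩ := mem_rs.1 h
  by_cases h1 : Sp [w] r
  · exact Sc_le_kr P.sc (a3.mem_Sc.2 h1.scOn)
  obtain ⟨k, hk, b1, b2⟩ := P.ctrl I hn hw a1 a2 (Or.inr h1)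
  exact mem_kr.2 ⟨k, hk, ⟨1, one_ne_zero, fun v hv => by rw [b2 v hv, one_smul]⟩,
    ip_of_maps P.two I.sq (fun v hv => b1 v hv ▸ Vp_map a2 hv) (fun v hv => (b2 v hv).symm ▸ hv),
    a3.congr fun v hv => (b1 v hv).symm⟩

end CM

end Cfsg.Agent.C6
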