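import Cfsg.Agent.C6.Res

/-! Normalisers of symplectic type `2`-groups: transvections, isometries, the prime field. -/

set_option autoImplicit false
set_option linter.unusedSectionVars false
set_option linter.unusedVariables false
set_option linter.unusedSimpArgs false

namespace Cfsg.Agent.C6

open Module Cfsg.Agent.H27

universe u v

variable {F : Type u} {V : Type v} [Field F] [AddCommGroup V] [Module F V]
variable {R M X : Subgroup (GV F V)} {a b c d g h k r s u w x y z : GV F V}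
variable {W : Submodule F V} {σ : F →+* F} {B : V →ₛₗ[σ] V →ₗ[F] F}

theorem toE_apply (g : GV F V) (x : V) : toE F V g x = g.1 x := rfl

theorem mem_ME : toE F V g ∈ ME M ↔ g ∈ M :=
  ⟨fun ⟨k, hk, e⟩ => (toE F V).injective e ▸ hk, fun h => ⟨g, h, rfl⟩⟩

theorem has_ME {f : V → V} : Has (ME M) f ↔ ∃ g ∈ M, ∀ x, g.1 x = f x :=
  ⟨fun ⟨_, ⟨g, hg, e⟩, h⟩ => ⟨g, hg, fun x => by rw [← h, ← e]; rfl⟩,
    fun ⟨g, hg, h⟩ => ⟨_, mem_ME.2 hg, h⟩⟩

theorem t1_ME {v : V} {φ : Dual F V} : T1 (ME M) v φ ↔ ∃ g ∈ M, ∀ x, g.1 x = x + φ x • v := has_ME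

theorem ME_mono (h : M ≤ X) : ME M ≤ ME X := Subgroup.map_mono h

theorem Big.mono (h : Big M) (h' : M ≤ X) : Big X :=
  let ⟨v, φ, h1, h2, h3, h4⟩ := h; ⟨v, φ, h1, h2, h3, h4.mono (ME_mono h')⟩

theorem t1_conj {v : V} {φ : Dual F V} (h : T1 (ME M) v φ) (hg : g ∈ M) :
    T1 (ME M) (g.1 v) (φ ∘ₗ (g⁻¹).1) := h.conj (mem_ME.2 hg)

theorem PF.nat (n : ℕ) : PF (n : F) := ⟨n, rfl⟩

theorem PF.one : PF (1 : F) := ⟨1, by simp⟩

theorem PF.add {a b : F} (ha : PF a) (hb : PF b) : PF (a + b) := by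
  obtain ⟨m, rfl⟩ := ha
  obtain ⟨n, rfl⟩ := hb
  exact ⟨m + n, by simp⟩

theorem PF.mul {a b : F} (ha : PF a) (hb : PF b) : PF (a * b) := by
  obtain ⟨m, rfl⟩ := ha
  obtain ⟨n, rfl⟩ := hb
  exact ⟨m * n, by simp⟩

theorem PF.pow {a : F} (ha : PF a) (n : ℕ) : PF (a ^ n) := by
  obtain ⟨m, rfl⟩ := ha
  exact ⟨m ^ n, by simp⟩

theorem PF.fix {a : F} (ha : PF a) (σ : F →+* F) : σ a = a := by
  obtain ⟨m, rfl⟩ := ha
  simp

theorem card_cast [Finite F] : ((Nat.card F : ℕ) : F) = 0 := by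
  have := Fintype.ofFinite F
  rw [Nat.card_eq_fintype_card, FiniteField.cast_card_eq_zero]

theorem two_le_card [Finite F] : 2 ≤ Nat.card F := Finite.one_lt_card

theorem card_pred_cast [Finite F] : ((Nat.card F - 1 : ℕ) : F) = -1 := by
  rw [Nat.cast_sub (by have := two_le_card (F := F); omega), card_cast]; simp

theorem pow_card_pred [Finite F] {c : F} (hc : c ≠ 0) : c ^ (Nat.card F - 1) = 1 := by
  have := Fintype.ofFinite F
  rw [Nat.card_eq_fintype_card, FiniteField.pow_card_sub_one_eq_one c hc]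

theorem PF.neg [Finite F] {a : F} (ha : PF a) : PF (-a) := by
  have := (PF.nat (F := F) (Nat.card F - 1)).mul ha
  rwa [card_pred_cast, neg_one_mul] at this

theorem PF.inv [Finite F] {a : F} (ha : PF a) : PF a⁻¹ := by
  by_cases h : a = 0
  · simpa [h] using ha
  rw [inv_eq_of_mul_eq_one_right (b := a ^ (Nat.card F - 2)) (by
    rw [← pow_succ', show Nat.card F - 2 + 1 = Nat.card F - 1 by
      have := two_le_card (F := F); omega, pow_card_pred h])]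
  exact ha.pow _

variable (F) in
/-- An exponent killing the scalars and fixing the transvections. -/
noncomputable def ex : ℕ := (Nat.card F - 1) * (Nat.card F - 1)

theorem ex_cast [Finite F] : ((ex F : ℕ) : F) = 1 := by
  rw [ex, Nat.cast_mul, card_pred_cast]; ring

theorem pow_ex [Finite F] {c : F} (hc : c ≠ 0) : c ^ ex F = 1 := by
  rw [ex, pow_mul, pow_card_pred hc, one_pow]

theorem pow_ap_sc {c : F} {v : V} (h : g.1 v = c • v) (n : ℕ) : (g ^ n).1 v = c ^ n • v := by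
  induction n with
  | zero => simp
  | succ n ih => rw [pow_succ, mul_ap, h, map_smul, ih, smul_smul, pow_succ']

theorem pow_ap_unip {N : V →ₗ[F] V} {c : F} (hN : ∀ x ∈ W, N x ∈ W) (h0 : ∀ x ∈ W, N (N x) = 0)
    (h : ∀ x ∈ W, g.1 x = c • (x + N x)) (n : ℕ) {x : V} (hx : x ∈ W) :
    (g ^ n).1 x = c ^ n • (x + (n : F) • N x) := by
  induction n with
  | zero => simp
  | succ n ih =>
    rw [pow_succ', mul_ap, ih, map_smul, h _ (W.add_mem hx (W.smul_mem _ (hN x hx))), map_add,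
      map_smul, h0 x hx, Nat.cast_succ]
    module

theorem pow_ex_unip [Finite F] {N : V →ₗ[F] V} {c : F} (hc : c ≠ 0) (hN : ∀ x ∈ W, N x ∈ W)
    (h0 : ∀ x ∈ W, N (N x) = 0) (h : ∀ x ∈ W, g.1 x = c • (x + N x)) {x : V} (hx : x ∈ W) :
    (g ^ ex F).1 x = x + N x := by
  rw [pow_ap_unip hN h0 h _ hx, pow_ex hc, ex_cast, one_smul, one_smul]

theorem Sc_pow_ex [Finite F] (hs : s ∈ Sc F V) : s ^ ex F = 1 := by
  obtain ⟨c, hc, e⟩ := Sc_ap hs
  exact GV_ext fun v => by rw [pow_ap_sc (e v), pow_ex hc, one_smul]; rfl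

theorem t1_nat {v : V} {φ : Dual F V} {H : Subgroup (V ≃ₗ[F] V)} (h : T1 H v φ) (h0 : φ v = 0)
    {c : F} (hc : PF c) : T1 H v (c • φ) := by
  obtain ⟨n, rfl⟩ := hc
  induction n with
  | zero => simpa using t1_zero_right v
  | succ n ih => simpa [add_smul] using ih.add_right h (by simp [h0])

theorem isom_iff : Isom B g ↔ toE F V g ∈ Iso B := Iff.rfl

theorem Isom.mul (a : Isom B g) (b : Isom B h) : Isom B (g * h) := fun x y => by
  rw [mul_ap, mul_ap, a, b]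

theorem Isom.one : Isom B (1 : GV F V) := fun _ _ => rfl

theorem Isom.inv (a : Isom B g) : Isom B g⁻¹ := fun x y => by
  rw [← a, val_apply_inv, val_apply_inv]

theorem Isom.neg (a : Isom B g) : Isom B (-g) := fun x y => by
  simp [neg_ap, a x y]

theorem Isom.pow (a : Isom B g) (n : ℕ) : Isom B (g ^ n) := by
  induction n with
  | zero => simpa using Isom.one
  | succ n ih => simpa [pow_succ] using ih.mul a

theorem Isom.adj (a : Isom B g) (x y : V) : B (g.1 x) y = B x ((g⁻¹).1 y) := by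
  rw [← a x, val_apply_inv]

theorem SI.conj (hM : SI B M) (hg : g ∈ M) (a : Isom B x) : Isom B (g * x * g⁻¹) := by
  obtain ⟨s, hs, h⟩ := hM g hg
  rw [← Sc_conj' hs (g * x * g⁻¹), show s * (g * x * g⁻¹) * s⁻¹ = s * g * x * (s * g)⁻¹ by group]
  exact (h.mul a).mul h.inv

theorem SI.pow_ex [Finite F] (hM : SI B M) (hg : g ∈ M) : Isom B (g ^ ex F) := by
  obtain ⟨s, hs, h⟩ := hM g hg
  have := h.pow (ex F)
  rwa [Commute.mul_pow (Sc_comm hs g), Sc_pow_ex hs, one_mul] at this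

theorem Isom.orth (h2 : (2 : F) ≠ 0) (a : Isom B w) {p q : V} (hp : p ∈ Vp w) (hq : q ∈ Vp (-w)) :
    B p q = 0 := by
  have := a p q
  rw [mem_Vp.1 hp, mem_Vp_neg.1 hq, map_neg] at this
  exact (mul_eq_zero.1 (by linear_combination -this)).resolve_left h2

theorem Isom.orth' (h2 : (2 : F) ≠ 0) (a : Isom B w) {p q : V} (hp : p ∈ Vp (-w))
    (hq : q ∈ Vp w) : B p q = 0 := a.neg.orth h2 hp (by simpa using hq)

theorem isom_of_parts (h2 : (2 : F) ≠ 0) (hw : w * w = 1) (a : Isom B w) {r r' : GV F V}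
    (b : Isom B r) (b' : Isom B r') (e : ip r w = 0) (e' : ip r' w = 0)
    (h1 : ∀ v ∈ Vp w, k.1 v = r.1 v) (h3 : ∀ v ∈ Vp (-w), k.1 v = r'.1 v) : Isom B k := by
  intro x y
  obtain ⟨p, hp, q, hq, rfl⟩ := Vp_dec h2 hw x
  obtain ⟨p', hp', q', hq', rfl⟩ := Vp_dec h2 hw y
  simp only [map_add, LinearMap.add_apply, h1 _ hp, h1 _ hp', h3 _ hq, h3 _ hq', b p p', b' q q',
    a.orth h2 hp hq', a.orth' h2 hq hp', a.orth h2 (Vp_map e hp) (Vp_map_neg e' hq'),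
    a.orth' h2 (Vp_map_neg e' hq) (Vp_map e hp')]

theorem nd_Vp (h2 : (2 : F) ≠ 0) (hw : w * w = 1) (a : Isom B w)
    (nd : ∀ x, (∀ y, B x y = 0) → x = 0) {x : V} (hx : x ∈ Vp w) (h : ∀ y ∈ Vp w, B x y = 0) :
    x = 0 := nd x fun y => by
  obtain ⟨p, hp, q, hq, rfl⟩ := Vp_dec h2 hw y
  rw [map_add, h p hp, a.orth h2 hx hq, add_zero]

theorem On.isom {h : GV F W} (o : On W g h) (a : Isom B g) : Isom (B.domRestrict₁₂ W W) h :=
  fun x y => by rw [LinearMap.domRestrict₁₂_apply, LinearMap.domRestrict₁₂_apply, o, o, a]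

theorem SI.rs (hM : SI B M) : SI (B.domRestrict₁₂ (Vp w) (Vp w)) (rs w M) := fun h hh => by
  obtain ⟨g, h1, -, h2⟩ := mem_rs.1 hh
  obtain ⟨s, hs, e⟩ := hM g h1
  obtain ⟨t, o⟩ := ex_on_Vp (ip_sc_left hs w)
  exact ⟨t, o.mem_Sc.2 (Sc_le_ScOn hs), (o.mul h2).isom e⟩

theorem UT.rs (U : UT B R M) (h2 : (2 : F) ≠ 0) (hw : w ∈ R) (h1 : w * w = 1) :
    UT (B.domRestrict₁₂ (Vp w) (Vp w)) (rs w R) (rs w M) where
  uf := U.uf
  skew x y := U.skew x y
  nd x h := Subtype.ext (nd_Vp h2 h1 (U.iso w hw) U.nd x.2 fun y hy => h ⟨y, hy⟩)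
  iso x hx := let ⟨g, h1, _, h2⟩ := mem_rs.1 hx; h2.isom (U.iso g h1)
  si := U.si.rs

theorem Ty.rs (U : Ty σ R M) (h2 : (2 : F) ≠ 0) (hw : w ∈ R) (h1 : w * w = 1) :
    Ty σ (rs w R) (rs w M) := U.imp id fun ⟨_, U⟩ => ⟨_, U.rs h2 hw h1⟩

theorem RT.rs {ε : F} {B : V →ₗ[F] V →ₗ[F] F} (U : RT ε B R M) (h2 : (2 : F) ≠ 0) (hw : w ∈ R)
    (h1 : w * w = 1) : RT ε (B.domRestrict₁₂ (Vp w) (Vp w)) (rs w R) (rs w M) where
  pf := U.pf
  eps := U.eps
  sym x y := U.sym x y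
  nd x h := Subtype.ext (nd_Vp h2 h1 (U.iso w hw) U.nd x.2 fun y hy => h ⟨y, hy⟩)
  iso x hx := let ⟨g, h1, _, h2⟩ := mem_rs.1 hx; h2.isom (U.iso g h1)
  si := U.si.rs

theorem UT.uh [FiniteDimensional F V] (U : UT B R M) : UH B := U.uf.uh V B U.skew U.nd

theorem isom_Sc [Nontrivial V] {B : V →ₗ[F] V →ₗ[F] F} (nd : ∀ x, (∀ y, B x y = 0) → x = 0)
    (hs : s ∈ Sc F V) (h : Isom B s) : s = 1 ∨ s = -1 := by
  obtain ⟨c, -, e⟩ := Sc_ap hs
  obtain ⟨v, hv⟩ := exists_ne (0 : V)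
  obtain ⟨y, hy⟩ := not_forall.1 (mt (nd v) hv)
  have := h v y
  simp only [e, map_smul, LinearMap.smul_apply, smul_eq_mul] at this
  refine Sc_sq hs (GV_ext fun x => ?_)
  rw [mul_ap, e, e, smul_smul, mul_right_cancel₀ hy (show c * c * B v y = 1 * B v y by
    rw [mul_assoc, this, one_mul]), one_smul]; rfl

theorem RT.bk {ε : F} {B : V →ₗ[F] V →ₗ[F] F} (U : RT ε B R M) (P : Pa R) : Bk R M :=
  fun c hc x hx h1 => by
    have := P.nt
    obtain ⟨s, hs, r, hr, e⟩ := mem_RS.1 h1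
    have h2 := (U.si.conj hc (U.iso x hx)).mul (U.iso r hr).inv
    rw [e, mul_inv_cancel_right] at h2
    rw [e]
    rcases isom_Sc U.nd hs h2 with rfl | rfl
    exacts [by simpa using hr, R.mul_mem P.neg hr]

theorem as_conj (S : SkH B) (hs : Sc F V ≤ M) (hM : SI B M) {v : V} (h : AS B (ME M) v)
    (hg : g ∈ M) : AS B (ME M) (g.1 v) := by
  obtain ⟨s, h1, e⟩ := hM g hg
  obtain ⟨c, hc, e1⟩ := Sc_ap h1
  have := h.conj (mem_ME.2 (M.mul_mem (hs h1) hg)) e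
  rw [toE_apply, mul_ap, e1] at this
  exact S.as_of_smul hc this

variable [Finite F] [FiniteDimensional F V]

theorem tv_iso (S : SkH B) (hM : SI B M) {v : V} {φ : Dual F V} (hv : v ≠ 0) (hφ : φ ≠ 0)
    (h0 : φ v = 0) (h : T1 (ME M) v φ) : B v v = 0 ∧ ∃ c, c ≠ 0 ∧ σ c = c ∧ φ = c • B v := by
  obtain ⟨g, hg, e⟩ := t1_ME.1 h
  have h1 := hM.pow_ex hg
  have e1 : ∀ x, (g ^ ex F).1 x = x + φ x • v := fun x =>
    pow_ex_unip (W := ⊤) (N := φ.smulRight v) one_ne_zero (by simp) (by simp [h0])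
      (by simp [e]) trivial
  obtain ⟨x0, hx0⟩ : ∃ x, φ x = 1 := by
    obtain ⟨x, hx⟩ := DFunLike.ne_iff.1 hφ
    exact ⟨(φ x)⁻¹ • x, by simpa using inv_mul_cancel₀ hx⟩
  have h2 : ∀ y, B v y = -(B x0 v + B v v) * φ y := fun y => by
    have := h1 x0 y
    simp only [e1, hx0, map_add, map_smul, LinearMap.add_apply, one_smul, smul_eq_mul] at this
    linear_combination this
  have h3 : B v v = 0 := by rw [h2, h0, mul_zero]
  have h4 : B v x0 = -B x0 v := by rw [h2, h3, hx0]; ring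
  have h5 : B v x0 ≠ 0 := fun e => hv (S.nd v fun y => by
    rw [h2, h3, add_zero, ← h4, e, zero_mul])
  refine ⟨h3, (B v x0)⁻¹, inv_ne_zero h5, ?_, LinearMap.ext fun y => ?_⟩
  · rw [map_inv₀, show σ (B v x0) = B v x0 by linear_combination S.skew v x0 - h4]
  · rw [LinearMap.smul_apply, h2 y, h3, add_zero, ← h4, smul_eq_mul, inv_mul_cancel_left₀ h5]

theorem UT.as_of_t1 (U : UT B R M) {v : V} {φ : Dual F V} (hv : v ≠ 0) (hφ : φ ≠ 0)
    (h0 : φ v = 0) (h : T1 (ME M) v φ) : AS B (ME M) v := by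
  obtain ⟨h1, c, hc, h2, rfl⟩ := tv_iso U.uh.toSkH U.si hv hφ h0 h
  refine ⟨h1, fun d hd => ?_⟩
  have := t1_nat h h0 (U.uf.pf (d / c) (by rw [map_div₀, hd, h2]))
  rwa [smul_smul, div_mul_cancel₀ _ hc] at this

theorem big_of_kr (h2 : (2 : F) ≠ 0) (hw : w * w = 1) (h : Big (kr w M)) : Big M := by
  obtain ⟨v, φ, h1, h3, h4, h5⟩ := h
  obtain ⟨t, ht, e⟩ := t1_ME.1 h5
  obtain ⟨g, hg, ⟨c, hc, e1⟩, -, o⟩ := mem_kr.1 ht
  let π : V →ₗ[F] Vp w := LinearMap.codRestrict (Vp w) ((2 : F)⁻¹ • (1 + w.1)) (half_mem hw)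
  have p1 : ∀ v : Vp w, π v = v := fun v => Subtype.ext (by
    change (2 : F)⁻¹ • ((v : V) + w.1 v) = v
    rw [mem_Vp.1 v.2, ← two_smul F, smul_smul, inv_mul_cancel₀ h2, one_smul])
  have p2 : ∀ v ∈ Vp (-w), π v = 0 := fun v hv => Subtype.ext (by
    change (2 : F)⁻¹ • (v + w.1 v) = 0
    rw [mem_Vp_neg.1 hv, add_neg_cancel, smul_zero])
  refine ⟨v, φ ∘ₗ π, fun e => h1 (Subtype.ext e), fun e => h3 (LinearMap.ext fun x : Vp w => ?_),
    by simp [p1, h4], t1_ME.2 ⟨_, M.pow_mem hg (ex F), fun x => ?_⟩⟩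
  · simpa [p1] using DFunLike.congr_fun e (x : V)
  obtain ⟨p, hp, q, hq, rfl⟩ := Vp_dec h2 hw x
  have e2 := pow_ex_unip (W := ⊤) (g := t) (N := φ.smulRight v) one_ne_zero (by simp)
    (by simp [h4]) (by simp [e]) (x := ⟨p, hp⟩) trivial
  rw [map_add, ← (o.pow _).ap hp, e2, pow_ap_sc (e1 q hq), pow_ex hc]
  simp [p2 q hq, p1 ⟨p, hp⟩]
  abel

end Cfsg.Agent.C6
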