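import Cfsg.Agent.C6.Tools
import Cfsg.Agent.H90.ML1

/-! Normalisers of symplectic type `2`-groups: overgroups containing a transvection, linear case. -/

set_option autoImplicit false
set_option linter.unusedSectionVars false
set_option linter.unusedVariables false
set_option linter.unusedSimpArgs false

namespace Cfsg.Agent.C6

open Module Cfsg.Agent.H27 Relation

universe u v

variable {F : Type u} {V : Type v} [Field F] [AddCommGroup V] [Module F V]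
variable [Finite F] [FiniteDimensional F V]
variable {R M : Subgroup (GV F V)} {a b c d g h k r s u w x y z : GV F V}

namespace CM

variable (P : CM R M) (hI : HasI R) (hn : 4 < finrank F V ^ 2)
include P hI hn

theorem conn {α : Type*} (act : GV F V → α → α) (D : α → Prop) (c : α → α → Prop)
    (am : ∀ g h p, act (g * h) p = act g (act h p)) (a1 : ∀ p, act 1 p = p)
    (hD : ∀ g ∈ M, ∀ p, D p → D (act g p)) (cs : ∀ {p q}, c p q → c q p)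
    (ct : ∀ {p q r}, c p q → c q r → c p r)
    (cg : ∀ g ∈ M, ∀ p q, c p q → c (act g p) (act g q))
    (cS : ∀ s ∈ Sc F V, ∀ p, D p → c p (act s p))
    (ex : ∀ p q, D p → D q → ∃ r ∈ R, c (act r p) q)
    (e0 : ∀ p, D p → ∃ y ∈ R, y ∉ Sc F V ∧ c p (act y p)) {p q : α} (hp : D p) (hq : D q) :
    c p q := by
  obtain ⟨y, hy, hy', h1⟩ := e0 p hp
  have A : ∀ q, D q → c q (act y q) := fun q hq => by
    obtain ⟨r, hr, h2⟩ := ex p q hp hq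
    have h3 := cg r (P.le hr) _ _ h1
    have h4 := cg y (P.le hy) _ _ h2
    rw [← am] at h3 h4
    refine ct (cs h2) (ct h3 (ct ?_ h4))
    rcases P.comm y hy r hr with e | e <;> rw [e]
    · exact ct (cs h3) h3
    · rw [← neg_one_mul, am (-1)]
      exact cS _ neg_one_mem_Sc _ (hD _ (P.le (R.mul_mem hr hy)) p hp)
  have S : ∀ s ∈ Sc F V, ∀ x ∈ M, (∀ q, D q → c q (act x q)) → ∀ q, D q → c q (act (s * x) q) :=
    fun s hs x hx h q hq => by rw [am]; exact ct (h q hq) (cS s hs _ (hD x hx q hq))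
  obtain ⟨r, hr, h2⟩ := ex p q hp hq
  refine ct ?_ h2
  by_cases h3 : r ∈ Sc F V
  · exact cS r h3 p hp
  obtain ⟨s, hs, s1, s2⟩ := P.exists_rep hI (le_RS hy) (Or.inl rfl)
  obtain ⟨s', hs', s3, s4⟩ := P.exists_rep hI (le_RS hr) (Or.inl rfl)
  obtain ⟨k, hk, e⟩ := P.trans (Or.inl hI) hn s1 s3 (by rwa [(Sc F V).mul_mem_cancel_left hs])
    (by rwa [(Sc F V).mul_mem_cancel_left hs']) (s2.trans s4.symm)
  have := S _ ((Sc F V).inv_mem hs') _ (P.le s3) (fun q hq => by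
    have := cg k hk.1 _ _ (S s hs y (P.le hy) A _ (hD _ (M.inv_mem hk.1) q hq))
    rwa [← am, mul_inv_cancel, a1, ← am, ← am, e] at this) p hp
  rwa [inv_mul_cancel_left] at this

omit hI hn in
theorem ctrl_sign (I : Iv R w) (hw : w ∈ R) (ha : NN R a) (h1 : ip a w = 0) (h2 : ¬ Sp [w] a)
    {ν : F} (hν : ν = 1 ∨ ν = -1) : ∃ k ∈ M, (∀ v ∈ Vp w, k.1 v = a.1 v ∧ (k⁻¹).1 v = -a.1 v) ∧
      ∀ v ∈ Vp (-w), k.1 v = ν • v ∧ (k⁻¹).1 v = ν • v := by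
  obtain ⟨k, hk, b1, b2⟩ : ∃ k ∈ M, (∀ v ∈ Vp w, k.1 v = a.1 v) ∧ ∀ v ∈ Vp (-w), k.1 v = ν • v := by
    obtain ⟨k, hk, b1, b2⟩ := P.ctrl_nn I hw ha h1 h2
    rcases hν with rfl | rfl
    · exact ⟨k, hk, b1, fun v hv => by rw [b2 v hv, one_smul]⟩
    · exact ⟨k * w, M.mul_mem hk (P.le hw), fun v hv => by rw [mul_ap, mem_Vp.1 hv, b1 v hv],
        fun v hv => by rw [mul_ap, mem_Vp_neg.1 hv, map_neg, b2 v hv, neg_one_smul]⟩
  refine ⟨k, hk, fun v hv => ⟨b1 v hv, inv_ap ?_⟩, fun v hv => ⟨b2 v hv, inv_ap ?_⟩⟩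
  · rw [map_neg, b1 _ (Vp_map h1 hv), sq_ap ha.2.1, neg_neg]
  · rw [map_smul, b2 v hv, smul_smul]
    rcases hν with rfl | rfl <;> simp

omit hn in
theorem exists_iv {v : V} {φ : Dual F V} (hv : v ≠ 0) (hφ : φ ≠ 0) (h0 : φ v = 0)
    {e : GV F V} (he : e = 1 ∨ e = -1) :
    ∃ w ∈ R, w * w = e ∧ w ∉ Sc F V ∧ φ (w.1 v) ≠ 0 := by
  obtain ⟨y, hy, h1⟩ := P.exists_ne hv hφ
  obtain ⟨s, hs, s1, s2⟩ := P.exists_rep hI (le_RS hy) he
  obtain ⟨c, hc, e⟩ := Sc_ap hs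
  have h2 : φ ((s * y).1 v) ≠ 0 := by
    rw [mul_ap, e, map_smul]; exact mul_ne_zero hc h1
  refine ⟨_, s1, s2, fun h3 => h2 ?_, h2⟩
  obtain ⟨d, -, e⟩ := Sc_ap h3
  rw [e, map_smul, h0, smul_zero]

theorem exists_pair (hw : w ∈ RS R) : ∃ a c, NN R a ∧ NN R c ∧ ip a w = 0 ∧ ip c w = 0 ∧
    ip c a = 1 := by
  have hl : ∀ b ∈ [w], b ∈ RS R := by simpa
  obtain ⟨a, ha, a1, a2⟩ := P.exists_NN' hl (by simpa using hn)
  obtain ⟨c, hc, c1, c2⟩ := P.exists_sep hl ha.RS a2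
  obtain ⟨s, hs, s1, s2⟩ := P.exists_rep hI (le_RS hc) (Or.inr rfl)
  have c3 := (ip_smul_left hs c a).trans c2
  exact ⟨a, s * c, ha, ⟨s1, s2, not_Sc_of_ip c3⟩, a1 w (by simp),
    (ip_smul_left hs c w).trans (c1 w (by simp)), c3⟩

omit P hI hn in
theorem not_sp_of_ip (h1 : ip c w = 0) (h2 : ip c a = 1) : ¬ Sp [w] a := fun h => by
  rw [h.ip (by simpa)] at h2; exact zero_ne_one h2

theorem tri {v : V} {φ : Dual F V} (hv : v ≠ 0) (hφ : φ ≠ 0) (h0 : φ v = 0) :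
    ∃ k ∈ M, ∃ k' ∈ M, φ (k.1 v) * φ ((k⁻¹).1 (k'.1 v)) * φ ((k'⁻¹).1 v) +
      φ ((k⁻¹).1 v) * φ ((k'⁻¹).1 (k.1 v)) * φ (k'.1 v) ≠ 0 := by
  obtain ⟨w, hw, w1, w2, w3⟩ := P.exists_iv hI hv hφ h0 (Or.inl rfl)
  have I : Iv R w := ⟨le_RS hw, w1, w2⟩
  obtain ⟨a, c, ha, hc, a1, c1, e⟩ := P.exists_pair hI hn I.mem
  obtain ⟨p, hp, q, hq, rfl⟩ := Vp_dec P.two w1 v
  have e1 : c.1 (a.1 p) = -a.1 (c.1 p) := by
    rw [← mul_ap, P.anti hc.RS ha.RS e]; rfl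
  have e2 : φ q = -φ p := by rw [map_add] at h0; linear_combination h0
  rw [map_add, mem_Vp.1 hp, mem_Vp_neg.1 hq, map_add, map_neg, e2] at w3
  by_contra hc'
  push Not at hc'
  have key : ∀ ν ν' : F, ν = 1 ∨ ν = -1 → ν' = 1 ∨ ν' = -1 →
      (φ (a.1 p) - ν * φ p) * (-φ (a.1 (c.1 p)) - ν * ν' * φ p) * (-φ (c.1 p) - ν' * φ p) +
      (-φ (a.1 p) - ν * φ p) * (φ (a.1 (c.1 p)) - ν * ν' * φ p) * (φ (c.1 p) - ν' * φ p) = 0 :=
    fun ν ν' h1 h2 => by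
      obtain ⟨k, hk, b1, b2⟩ := P.ctrl_sign I hw ha a1 (not_sp_of_ip c1 e) h1
      obtain ⟨k', hk', b3, b4⟩ := P.ctrl_sign I hw hc c1
        (not_sp_of_ip a1 ((ip_comm _ _).trans e)) h2
      have := hc' k hk k' hk'
      simp only [map_add, map_smul, map_neg, b1 p hp, b2 q hq, b3 p hp, b4 q hq,
        b1 _ (Vp_map c1 hp), b3 _ (Vp_map a1 hp), e1, e2, smul_eq_mul] at this
      linear_combination this
  have := key 1 1 (Or.inl rfl) (Or.inl rfl)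
  have := key 1 (-1) (Or.inl rfl) (Or.inr rfl)
  have := key (-1) 1 (Or.inr rfl) (Or.inl rfl)
  have := key (-1) (-1) (Or.inr rfl) (Or.inr rfl)
  have h8 : (2 : F) ^ 3 * φ p ^ 3 = 0 := by grind
  rw [← mul_pow, pow_eq_zero_iff (by simp)] at h8
  exact w3 (by linear_combination h8)

end CM

local notation "Ev" => Module.Dual.eval F V

theorem Pa.inv_ap_ne (P : Pa R) (hr : r ∈ R) {v : V} {φ : Dual F V} (h : φ (r.1 v) ≠ 0) :
    φ ((r⁻¹).1 v) ≠ 0 := by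
  rcases P.sq r hr with e | e
  · rwa [inv_of_sq' e]
  · rwa [inv_of_sq e, neg_ap, map_neg, neg_ne_zero]

theorem CM.ts (P : CM R M) (pf : ∀ a : F, PF a) :
    H90.TS Ev fun v φ => φ v = 0 ∧ T1 (ME M) v φ := by
  refine ⟨fun h => h.1, fun φ => ⟨map_zero _, t1_zero_left φ⟩, fun v => ⟨rfl, t1_zero_right v⟩,
    fun a h => ⟨by simp [h.1], t1_smul.2 (t1_nat h.2 h.1 (pf a))⟩,
    fun a h => ⟨by simp [h.1], t1_nat h.2 h.1 (pf a)⟩,
    fun h h' => ⟨by simp [h.1, h'.1], h.2.add_left h'.2 h'.1⟩,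
    fun h h' => ⟨by simp [h.1, h'.1], h.2.add_right h'.2 h.1⟩,
    fun {v φ w ψ} h h' => ⟨by simp [h.1, h'.1, mul_comm], ?_⟩, fun {v φ} h hv hφ => ?_⟩
  · obtain ⟨g, hg, e⟩ := h'.2
    have := T1.of_conj (v := v) (φ := φ - φ w • ψ) hg (by
      convert h.2 using 1; ext x; simp [e, h'.1, mul_comm])
    rwa [e] at this
  · obtain ⟨r, hr, e⟩ := P.exists_ne hv hφ
    exact ⟨r.1 v, φ ∘ₗ (r⁻¹).1, ⟨by simpa [val_inv_apply] using h.1, t1_conj h.2 (P.le hr)⟩, e,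
      P.inv_ap_ne hr e⟩

theorem CM.tvl (P : CM R M) (hI : HasI R) (hn : 4 < finrank F V ^ 2) (pf : ∀ a : F, PF a)
    (hB : Big M) (v : V) (φ : Dual F V) (h0 : φ v = 0) : T1 (ME M) v φ := by
  have h := P.ts pf
  obtain ⟨Γ, hΓ⟩ : ∃ Γ, Γ = fun (v : V) (φ : Dual F V) => φ v = 0 ∧ T1 (ME M) v φ := ⟨_, rfl⟩
  have cj : ∀ g ∈ M, ∀ v φ, Γ v φ → Γ (g.1 v) (φ ∘ₗ (g⁻¹).1) := fun g hg v φ h => by
    rw [hΓ] at h ⊢
    exact ⟨by simpa [val_inv_apply] using h.1, t1_conj h.2 hg⟩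
  have nz : ∀ (g : GV F V) (φ : Dual F V), φ ≠ 0 → φ ∘ₗ (g⁻¹).1 ≠ 0 := fun g φ h e =>
    h (LinearMap.ext fun x => by simpa [val_inv_apply] using DFunLike.congr_fun e (g.1 x))
  have cn : ∀ g ∈ M, ∀ p : V × Dual F V, H90.ND Γ p → H90.ND Γ (g.1 p.1, p.2 ∘ₗ (g⁻¹).1) :=
    fun g hg p hp => ⟨cj g hg _ _ hp.1, ap_ne g hp.2.1, nz g _ hp.2.2⟩
  rw [← hΓ] at h
  have hc : H90.TConn Ev Γ := fun p q hp hq => by
    refine P.conn hI hn (fun g p => (g.1 p.1, p.2 ∘ₗ (g⁻¹).1)) (H90.ND Γ)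
      (ReflTransGen (H90.Op Ev Γ)) (fun g h p => by rw [mul_inv_rev]; rfl) (fun p => rfl) cn
      (H90.rtg_symm H90.Op.symm) ReflTransGen.trans (fun g hg p q h => ?_) (fun s hs p hp => ?_)
      (fun p q hp hq => ?_) (fun p hp => ?_) hp hq
    · induction h with
      | refl => exact .refl
      | tail _ o ih =>
        exact ih.tail ⟨cj g hg _ _ o.1, cj g hg _ _ o.2.1, by simpa [val_inv_apply] using o.2.2.1,
          by simpa [val_inv_apply] using o.2.2.2⟩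
    · obtain ⟨c, hc, e⟩ := Sc_ap hs
      have h1 := cn s (P.sc hs) p hp
      have h2 : Γ (s.1 p.1) p.2 := e p.1 ▸ h.sml c hp.1
      exact (h.same_axis hp.1 h2 hp.2.2 hp.2.1 h1.2.1).trans
        (h.same_center h2 h1.1 h1.2.1 hp.2.2 h1.2.2)
    · obtain ⟨r, hr, e⟩ := P.exists_ne hp.2.1 hq.2.2
      exact ⟨r, hr, H90.rtg_symm H90.Op.symm (h.conn_of_ne hq (cn r (P.le hr) p hp) e)⟩
    · obtain ⟨r, hr, -, e1, e⟩ := P.exists_iv hI hp.2.1 hp.2.2 (h.zero hp.1) (Or.inl rfl)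
      exact ⟨r, hr, e1, h.conn_of_ne hp (cn r (P.le hr) p hp) e⟩
  obtain ⟨v0, φ0, b1, b2, b3, b4⟩ := hB
  have p0 : H90.ND Γ (v0, φ0) := ⟨by rw [hΓ]; exact ⟨b3, b4⟩, b1, b2⟩
  obtain ⟨p, q, hp, hq, e1, e2⟩ : ∃ p q, H90.ND Γ p ∧ H90.ND Γ q ∧ p.2 q.1 ≠ 0 ∧ q.2 p.1 = 0 := by
    by_contra hA
    push Not at hA
    have hA' : ∀ v φ w ψ, H90.ND Γ (v, φ) → H90.ND Γ (w, ψ) → φ w = 0 → ψ v = 0 :=
      fun v φ w ψ h1 h2 e => by_contra fun e' => hA _ _ h2 h1 e' e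
    obtain ⟨k, hk, k', hk', e⟩ := P.tri hI hn b1 b2 b3
    have hq := cn k hk _ p0
    have hr := cn k' hk' _ p0
    apply e
    have f1 := hA' _ _ _ _ p0 hq
    have f2 := hA' _ _ _ _ hq hr
    simp only [LinearMap.comp_apply] at f1 f2
    by_cases e1 : φ0 (k.1 v0) = 0
    · rw [e1, f1 e1]; ring
    by_cases e2 : φ0 ((k⁻¹).1 (k'.1 v0)) = 0
    · rw [e2, f2 e2]; ring
    have h1 := h.conj hr.1 (h.smr (-φ0 (k'.1 v0) / (φ0 ((k⁻¹).1 (k'.1 v0)) * φ0 (k.1 v0))) hq.1)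
    have := hA' _ _ _ _ p0 ⟨h1, fun e3 => ?_, fun e3 => ?_⟩ (by
      simp only [Dual.eval_apply, map_add, map_smul, LinearMap.smul_apply, LinearMap.comp_apply,
        smul_eq_mul]
      field_simp
      ring)
    · simp only [Dual.eval_apply, LinearMap.sub_apply, LinearMap.smul_apply, LinearMap.comp_apply,
        smul_eq_mul] at this
      field_simp at this
      linear_combination this
    · have := congrArg (fun x => φ0 ((k⁻¹).1 x)) e3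
      simp [val_inv_apply, b3, e2] at this
    · have := DFunLike.congr_fun e3 (k.1 v0)
      simp [val_inv_apply, b3] at this
      exact e2 (hA' _ _ _ _ hr hq this :)
  have h3 := fun u hu => h.two_ax hc hp hq e1 e2 (u := u) hu
  have sp : ∀ x, x = 0 ∨ H90.Cen Γ x := fun x => h.cen_of_span hc P.two h3 (by
    rw [P.eq_top (W := Submodule.span F {v | H90.Cen Γ v}) b1 fun y hy =>
      Submodule.subset_span ⟨_, cn y (P.le hy) _ p0⟩]; trivial)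
  rcases sp v with rfl | hv
  · exact t1_zero_left φ
  have : φ ∈ h.ax v := by
    rw [← Subspace.dualCoannihilator_dualAnnihilator_eq (W := h.ax v),
      Submodule.mem_dualAnnihilator]
    intro w hw
    rw [Submodule.mem_dualCoannihilator] at hw
    rcases sp w with rfl | hw'
    · rw [map_zero]
    obtain ⟨c, rfl⟩ := h.prop hc P.two h3 hv hw' hw
    rw [map_smul, h0, smul_zero]
  have h4 : Γ v φ := this
  rw [hΓ] at h4
  exact h4.2

end Cfsg.Agent.C6
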